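import Cfsg.Agent.Lib.M24Data.Universe
import Cfsg.Agent.Lib.M24Data.Classes

/-!
# Numbers of invariant octads, dodecads, sextets, trios for the four classes of elements of order 2, 3
-/

set_option autoImplicit false

namespace Cfsg.Agent.Lib.M24Data.Counts

open Cfsg Cfsg.Agent.Lib.Golay.Core Cfsg.Agent.Lib.Golay.Perm Cfsg.Agent.Lib.Golay.Chain
  Cfsg.Agent.Lib.Golay.M24 Cfsg.Agent.Lib.M24Data.Tree Cfsg.Agent.Lib.M24Data.Universe
  Cfsg.Agent.Lib.M24Data.Classes
open scoped Pointwise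

/-- The number of fixed objects is a class function. -/
theorem ncard_fix_conj {Y : Type*} [MulAction (Equiv.Perm GolayPt) Y] (F : Set Y)
    (hF : ∀ τ ∈ M24, ∀ y ∈ F, τ • y ∈ F) {τ : Equiv.Perm GolayPt} (σ : Equiv.Perm GolayPt)
    (hτ : τ ∈ M24) :
    {y | y ∈ F ∧ (τ * σ * τ⁻¹) • y = y}.ncard = {y | y ∈ F ∧ σ • y = y}.ncard := by
  have h : {y | y ∈ F ∧ (τ * σ * τ⁻¹) • y = y} = (fun y => τ • y) '' {y | y ∈ F ∧ σ • y = y} := by
    ext y
    simp only [Set.mem_ofPred_eq, Set.mem_image]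
    constructor
    · rintro ⟨h1, h2⟩
      refine ⟨τ⁻¹ • y, ⟨hF _ (M24.inv_mem hτ) _ h1, ?_⟩, smul_inv_smul τ y⟩
      have h3 : τ • σ • τ⁻¹ • y = y := by simpa only [mul_smul] using h2
      calc σ • τ⁻¹ • y = τ⁻¹ • (τ • σ • τ⁻¹ • y) := (inv_smul_smul τ _).symm
        _ = τ⁻¹ • y := by rw [h3]
    · rintro ⟨z, ⟨h1, h2⟩, rfl⟩
      refine ⟨hF _ hτ _ h1, ?_⟩
      simp only [mul_smul, inv_smul_smul, h2]
  rw [h]
  exact Set.ncard_image_of_injective _ (MulAction.injective τ)

theorem count_octads {P : ℕ} (hP : Good P) :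
    {o | o ∈ octads ∧ g P • o = o}.ncard = countUpTo (fun i => relO P i i) 759 :=
  ncard_sep octads decO 759 octads_eq decO_injOn _ _ fun _ _ => relO_iff hP |>.symm

theorem count_sextets {P : ℕ} (hP : Good P) :
    {S | S ∈ sextets ∧ g P • S = S}.ncard = countUpTo (fun i => relS P i i) 1771 :=
  ncard_sep sextets decS 1771 sextets_eq decS_injOn _ _ fun _ hi => (relS_iff hP hi hi).symm

theorem count_trios {P : ℕ} (hP : Good P) :
    {T | T ∈ trios ∧ g P • T = T}.ncard = countUpTo (fun i => relT P i i) 3795 :=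
  ncard_sep trios decT 3795 trios_eq decT_injOn _ _ fun _ hi => (relT_iff hP hi hi).symm

theorem count_dodecads {P : ℕ} (hP : Good P) :
    {d | d ∈ dodecads ∧ g P • d = d}.ncard =
      countUpTo (fun m => Nat.beq (pop (code m)) 12 && Nat.beq (mapMask P (code m)) (code m)) 4096 := by
  have hF : supports (golayCode : Set (GolayPt → ZMod 2)) =
      (fun m => setOf (code m)) '' {i | i < 4096} := by
    ext s
    rw [mem_supports_iff']
    constructor
    · rintro ⟨m, hm, rfl⟩
      exact ⟨m, hm, rfl⟩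
    · rintro ⟨m, hm, rfl⟩
      exact ⟨m, hm, rfl⟩
  have hinj : Set.InjOn (fun m => setOf (code m)) {i | i < 4096} := by
    intro a ha b hb h
    exact code_injOn ha hb (eq_of_setOf_eq (code_lt ha) (code_lt hb) h)
  have := ncard_sep (supports (golayCode : Set (GolayPt → ZMod 2))) (fun m => setOf (code m)) 4096 hF hinj
    (fun d => d.card = 12 ∧ g P • d = d)
    (fun m => Nat.beq (pop (code m)) 12 && Nat.beq (mapMask P (code m)) (code m)) (by
      intro m hm
      simp only [Bool.and_eq_true, card_setOf, smul_setOf hP.1]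
      rw [setOf_injOn (mapMask_lt hP.1 _) (code_lt hm)]
      constructor
      · rintro ⟨h1, h2⟩
        rw [h1, h2]
        exact ⟨Nat.beq_refl _, Nat.beq_refl _⟩
      · rintro ⟨h1, h2⟩
        exact ⟨Nat.eq_of_beq_eq_true h1, Nat.eq_of_beq_eq_true h2⟩)
  rw [← this]
  congr 1
  ext d
  simp only [Set.mem_ofPred_eq, dodecads, wordsOfWeight]
  tauto

theorem good_x3A : Good x3A := good_of_check reps_ok.1
theorem good_x3B : Good x3B := good_of_check reps_ok.2.1
theorem good_t2A : Good t2A := good_of_check reps_ok.2.2.1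
theorem good_t2B : Good t2B := good_of_check reps_ok.2.2.2.1

theorem x3A_octads : countUpTo (fun i => relO x3A i i) 759 = 21 := by decide +kernel
theorem x3A_trios : countUpTo (fun i => relT x3A i i) 3795 = 15 := by decide +kernel
theorem x3A_sextets : countUpTo (fun i => relS x3A i i) 1771 = 16 := by decide +kernel
theorem x3A_dodecads : countUpTo (fun m => Nat.beq (pop (code m)) 12 && Nat.beq (mapMask x3A (code m)) (code m)) 4096 = 20 := by
  decide +kernel

theorem x3B_sextets : countUpTo (fun i => relS x3B i i) 1771 = 7 := by decide +kernel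
theorem x3B_trios : countUpTo (fun i => relT x3B i i) 3795 = 15 := by decide +kernel

theorem t2A_octads : countUpTo (fun i => relO t2A i i) 759 = 71 := by decide +kernel
theorem t2A_trios : countUpTo (fun i => relT t2A i i) 3795 = 99 := by decide +kernel
theorem t2A_sextets : countUpTo (fun i => relS t2A i i) 1771 = 91 := by decide +kernel

theorem t2B_octads : countUpTo (fun i => relO t2B i i) 759 = 15 := by decide +kernel
theorem t2B_trios : countUpTo (fun i => relT t2B i i) 3795 = 75 := by decide +kernel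
theorem t2B_sextets : countUpTo (fun i => relS t2B i i) 1771 = 51 := by decide +kernel

theorem smul_inv_mem_octads : ∀ τ ∈ M24, ∀ y ∈ octads, τ • y ∈ octads := fun _ hτ _ hy => smul_mem_octads hτ hy
theorem smul_inv_mem_dodecads : ∀ τ ∈ M24, ∀ y ∈ dodecads, τ • y ∈ dodecads := fun _ hτ _ hy => smul_mem_dodecads hτ hy
theorem smul_inv_mem_sextets : ∀ τ ∈ M24, ∀ y ∈ sextets, τ • y ∈ sextets := fun _ hτ _ hy => smul_mem_sextets hτ hy
theorem smul_inv_mem_trios : ∀ τ ∈ M24, ∀ y ∈ trios, τ • y ∈ trios := fun _ hτ _ hy => smul_mem_trios hτ hy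

theorem ne_one_of_order {σ : Equiv.Perm GolayPt} {n : ℕ} (hn : n ≠ 1) (h : orderOf σ = n) : σ ≠ 1 := by
  rintro rfl
  rw [orderOf_one] at h
  exact hn h.symm

/-- Elements of order 3 with six fixed points. -/
theorem counts_3A {σ : Equiv.Perm GolayPt} (hσ : σ ∈ M24) (h3 : orderOf σ = 3)
    (h6 : (Finset.univ.filter fun p => σ p = p).card = 6) :
    {o | o ∈ octads ∧ σ • o = o}.ncard = 21 ∧ {T | T ∈ trios ∧ σ • T = T}.ncard = 15 ∧
      {S | S ∈ sextets ∧ σ • S = S}.ncard = 16 ∧ {d | d ∈ dodecads ∧ σ • d = d}.ncard = 20 := by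
  have hp : σ ^ 3 = 1 := by rw [← h3]; exact pow_orderOf_eq_one σ
  rcases class3 hσ hp (ne_one_of_order (by norm_num) h3) with ⟨-, τ, hτ, he⟩ | ⟨h0, -⟩
  · refine ⟨?_, ?_, ?_, ?_⟩
    · rw [← ncard_fix_conj _ smul_inv_mem_octads σ hτ, he, count_octads good_x3A, x3A_octads]
    · rw [← ncard_fix_conj _ smul_inv_mem_trios σ hτ, he, count_trios good_x3A, x3A_trios]
    · rw [← ncard_fix_conj _ smul_inv_mem_sextets σ hτ, he, count_sextets good_x3A, x3A_sextets]
    · rw [← ncard_fix_conj _ smul_inv_mem_dodecads σ hτ, he, count_dodecads good_x3A, x3A_dodecads]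
  · omega

/-- Fixed-point-free elements of order 3. -/
theorem counts_3B {σ : Equiv.Perm GolayPt} (hσ : σ ∈ M24) (h3 : orderOf σ = 3) (h0 : ∀ p, σ p ≠ p) :
    {S | S ∈ sextets ∧ σ • S = S}.ncard = 7 ∧ {T | T ∈ trios ∧ σ • T = T}.ncard = 15 := by
  have hp : σ ^ 3 = 1 := by rw [← h3]; exact pow_orderOf_eq_one σ
  have hz : (Finset.univ.filter fun p => σ p = p).card = 0 := by
    rw [Finset.card_eq_zero, Finset.filter_eq_empty_iff]
    exact fun p _ => h0 p
  rcases class3 hσ hp (ne_one_of_order (by norm_num) h3) with ⟨h6, -⟩ | ⟨-, τ, hτ, he⟩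
  · omega
  · refine ⟨?_, ?_⟩
    · rw [← ncard_fix_conj _ smul_inv_mem_sextets σ hτ, he, count_sextets good_x3B, x3B_sextets]
    · rw [← ncard_fix_conj _ smul_inv_mem_trios σ hτ, he, count_trios good_x3B, x3B_trios]

/-- Involutions with eight fixed points. -/
theorem counts_2A {σ : Equiv.Perm GolayPt} (hσ : σ ∈ M24) (h2 : orderOf σ = 2)
    (h8 : (Finset.univ.filter fun p => σ p = p).card = 8) :
    {o | o ∈ octads ∧ σ • o = o}.ncard = 71 ∧ {T | T ∈ trios ∧ σ • T = T}.ncard = 99 ∧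
      {S | S ∈ sextets ∧ σ • S = S}.ncard = 91 := by
  have hp : σ ^ 2 = 1 := by rw [← h2]; exact pow_orderOf_eq_one σ
  rcases class2 hσ hp (ne_one_of_order (by norm_num) h2) with ⟨-, τ, hτ, he⟩ | ⟨h0, -⟩
  · refine ⟨?_, ?_, ?_⟩
    · rw [← ncard_fix_conj _ smul_inv_mem_octads σ hτ, he, count_octads good_t2A, t2A_octads]
    · rw [← ncard_fix_conj _ smul_inv_mem_trios σ hτ, he, count_trios good_t2A, t2A_trios]
    · rw [← ncard_fix_conj _ smul_inv_mem_sextets σ hτ, he, count_sextets good_t2A, t2A_sextets]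
  · omega

/-- Fixed-point-free involutions. -/
theorem counts_2B {σ : Equiv.Perm GolayPt} (hσ : σ ∈ M24) (h2 : orderOf σ = 2) (h0 : ∀ p, σ p ≠ p) :
    {o | o ∈ octads ∧ σ • o = o}.ncard = 15 ∧ {T | T ∈ trios ∧ σ • T = T}.ncard = 75 ∧
      {S | S ∈ sextets ∧ σ • S = S}.ncard = 51 := by
  have hp : σ ^ 2 = 1 := by rw [← h2]; exact pow_orderOf_eq_one σ
  have hz : (Finset.univ.filter fun p => σ p = p).card = 0 := by
    rw [Finset.card_eq_zero, Finset.filter_eq_empty_iff]
    exact fun p _ => h0 p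
  rcases class2 hσ hp (ne_one_of_order (by norm_num) h2) with ⟨h6, -⟩ | ⟨-, τ, hτ, he⟩
  · omega
  · refine ⟨?_, ?_, ?_⟩
    · rw [← ncard_fix_conj _ smul_inv_mem_octads σ hτ, he, count_octads good_t2B, t2B_octads]
    · rw [← ncard_fix_conj _ smul_inv_mem_trios σ hτ, he, count_trios good_t2B, t2B_trios]
    · rw [← ncard_fix_conj _ smul_inv_mem_sextets σ hτ, he, count_sextets good_t2B, t2B_sextets]

end Cfsg.Agent.Lib.M24Data.Counts
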