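import Mathlib

/-!
# Restriction of a group action to an invariant finite set

`restrH H C hH : H →* Equiv.Perm C` for a subgroup `H` of a group acting on `α` with `C` invariant,
and `permFin6` to pass from permutations of a six-element finite set to `Equiv.Perm (Fin 6)`.
-/

set_option autoImplicit false

namespace Cfsg.Agent.Lib.M24Data.Restrict

variable {G α : Type*} [Group G] [MulAction G α]

/-- The restriction homomorphism to an invariant set. -/
def restrH (H : Subgroup G) (C : Set α) (hH : ∀ h ∈ H, ∀ x ∈ C, h • x ∈ C) : H →* Equiv.Perm C where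
  toFun h :=
    { toFun := fun x => ⟨h.1 • x.1, hH h.1 h.2 x.1 x.2⟩
      invFun := fun x => ⟨h.1⁻¹ • x.1, hH _ (H.inv_mem h.2) x.1 x.2⟩
      left_inv := fun x => Subtype.ext (inv_smul_smul h.1 x.1)
      right_inv := fun x => Subtype.ext (smul_inv_smul h.1 x.1) }
  map_one' := by
    ext x
    simp
  map_mul' := by
    intro a b
    ext x
    simp [mul_smul]

@[simp] theorem restrH_apply (H : Subgroup G) (C : Set α) (hH : ∀ h ∈ H, ∀ x ∈ C, h • x ∈ C)
    (h : H) (x : C) : ((restrH H C hH h) x : α) = h.1 • x.1 := rfl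

/-- Two permutations of a set agreeing off one point agree. -/
theorem perm_eq_of_agree {β : Type*} (σ τ : Equiv.Perm β) (c₀ : β)
    (h : ∀ c, c ≠ c₀ → σ c = τ c) : σ = τ := by
  ext c
  by_cases hc : c = c₀
  · subst hc
    by_contra hne
    obtain ⟨c₁, hc₁⟩ := τ.surjective (σ c)
    have hc₁' : c₁ ≠ c := by
      rintro rfl
      exact hne hc₁.symm
    have := h c₁ hc₁'
    rw [hc₁] at this
    exact hc₁' (σ.injective this)
  · exact h c hc

/-- A bijective restriction gives an isomorphism with the symmetric group on `Fin n`. -/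
theorem nonempty_equiv_perm_fin (H : Subgroup G) (C : Set α) (hH : ∀ h ∈ H, ∀ x ∈ C, h • x ∈ C)
    {n : ℕ} (e : C ≃ Fin n) (hb : Function.Bijective (restrH H C hH)) :
    Nonempty (H ≃* Equiv.Perm (Fin n)) :=
  ⟨(MulEquiv.ofBijective _ hb).trans e.permCongrHom⟩

end Cfsg.Agent.Lib.M24Data.Restrict
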