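import Cfsg.Agent.Lib.Golay.Stab
import Cfsg.Agent.Lib.Golay.Dodecad
import Cfsg.Agent.Lib.M24Orb.Triads
import Cfsg.Agent.Lib.M24Data.Restrict

/-!
# Pointwise stabilisers of finite sets of points and six-element sets

`FixE E` is the pointwise stabiliser in the group of the code of a finite set `E`.  Conjugation
transports it; the six-element sets fall in two orbits, represented by `E0a` (inside the octad
through the base) and `E0b`.
-/

set_option autoImplicit false

namespace Cfsg.Agent.Lib.M24Data.FixE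

open Cfsg Cfsg.Agent.Lib.Golay.Core Cfsg.Agent.Lib.Golay.Perm Cfsg.Agent.Lib.Golay.Chain
  Cfsg.Agent.Lib.Golay.M24 Cfsg.Agent.Lib.Golay.Basic Cfsg.Agent.Lib.Golay.Stab
  Cfsg.Agent.Lib.Golay.Dodecad Cfsg.Agent.Lib.M24Orb.Triads
open scoped Pointwise

/-- The pointwise stabiliser of a finite set in the group of the code. -/
def FixE (E : Finset GolayPt) : Subgroup (Equiv.Perm GolayPt) where
  carrier := {σ | σ ∈ M24 ∧ ∀ x ∈ E, σ x = x}
  one_mem' := ⟨M24.one_mem, fun _ _ => rfl⟩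
  mul_mem' := by
    rintro a b ⟨ha, ha'⟩ ⟨hb, hb'⟩
    refine ⟨M24.mul_mem ha hb, fun x hx => ?_⟩
    rw [Equiv.Perm.mul_apply, hb' x hx, ha' x hx]
  inv_mem' := by
    rintro a ⟨ha, ha'⟩
    refine ⟨M24.inv_mem ha, fun x hx => ?_⟩
    rw [Equiv.Perm.inv_eq_iff_eq, ha' x hx]

theorem mem_FixE {E : Finset GolayPt} {σ : Equiv.Perm GolayPt} :
    σ ∈ FixE E ↔ σ ∈ M24 ∧ ∀ x ∈ E, σ x = x := Iff.rfl

/-- Conjugation transports `FixE`. -/
noncomputable def conjFixE {τ : Equiv.Perm GolayPt} (hτ : τ ∈ M24) (E : Finset GolayPt) :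
    FixE E ≃* FixE (τ • E) :=
  conjEquiv τ _ _ (by
    intro x
    simp only [mem_FixE]
    constructor
    · rintro ⟨h1, h2⟩
      refine ⟨M24.mul_mem (M24.mul_mem hτ h1) (M24.inv_mem hτ), fun a ha => ?_⟩
      obtain ⟨b, hb, rfl⟩ := Finset.mem_smul_finset.mp ha
      simp [h2 b hb]
    · rintro ⟨h1, h2⟩
      refine ⟨?_, fun a ha => ?_⟩
      · have := M24.mul_mem (M24.mul_mem (M24.inv_mem hτ) h1) hτ
        have e : τ⁻¹ * (τ * x * τ⁻¹) * τ = x := by group
        rwa [e] at this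
      · have := h2 (τ a) (Finset.mem_smul_finset.mpr ⟨a, ha, rfl⟩)
        have e : τ⁻¹ (τ a) = a := Equiv.symm_apply_apply τ a
        rw [Equiv.Perm.mul_apply, Equiv.Perm.mul_apply, e] at this
        exact τ.injective this)

/-- The set of points with numbers in a list. -/
def setL (L : List ℕ) : Finset GolayPt := (L.map pt).toFinset

theorem mem_setL {L : List ℕ} {p : GolayPt} : p ∈ setL L ↔ ∃ x ∈ L, pt x = p := by
  simp [setL]

theorem FixE_setL (L : List ℕ) : FixE (setL L) = Fix L := by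
  ext σ
  simp only [mem_FixE, mem_Fix, mem_setL]
  constructor
  · rintro ⟨h1, h2⟩
    exact ⟨h1, fun x hx => h2 _ ⟨x, hx, rfl⟩⟩
  · rintro ⟨h1, h2⟩
    refine ⟨h1, ?_⟩
    rintro _ ⟨x, hx, rfl⟩
    exact h2 x hx

/-- The order of the pointwise stabiliser of the five base points and a point off the octad. -/
theorem card_F6b : Nat.card (Fix [4, 3, 2, 1, 0, 23]) = 3 := by
  have hT : ∀ P ∈ T6, checkAut P = true ∧ ∀ x ∈ [3, 2, 1, 0, 23], img P x = x := by
    intro P hP
    obtain ⟨h1, h2⟩ := tableOK_spec tableOK6 P hP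
    exact ⟨h1, fun x hx => h2 x (List.mem_cons_of_mem _ hx)⟩
  have h := card_Fix_step (F := [3, 2, 1, 0, 23]) (b := 4) orb_nodup6 orb_lt6 ?_
    (fun q hq => exists_of_table (by norm_num) (by decide) hT hq)
  · rw [orb_len6, card_F5] at h
    omega
  · intro σ hσ
    have h1 : pt 4 ∉ setOf O0 := by
      rw [mem_setOf, idx_pt (by norm_num)]
      decide +kernel
    have h2 : σ (pt 4) ∉ setOf O0 := fun h => h1 ((mem_O0_iff hσ (pt 4)).mp h)
    rw [mem_setOf] at h2
    have key : ∀ j < 24, O0.testBit j ≠ true → j ∈ T6.map (fun P => img P 4) := by decide +kernel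
    exact key _ (idx_lt _) h2

theorem card_FixE_smul {τ : Equiv.Perm GolayPt} (hτ : τ ∈ M24) (E : Finset GolayPt) :
    Nat.card (FixE (τ • E)) = Nat.card (FixE E) :=
  (Nat.card_congr (conjFixE hτ E).toEquiv).symm

/-- The set of the five base points with a sixth one on the octad through them. -/
abbrev E0a : Finset GolayPt := setL [5, 3, 2, 1, 0, 23]
/-- The set of the five base points with a sixth one off the octad through them. -/
abbrev E0b : Finset GolayPt := setL [4, 3, 2, 1, 0, 23]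

theorem card_FixE_E0a : Nat.card (FixE E0a) = 16 := by
  rw [E0a, FixE_setL, card_F6]

theorem card_FixE_E0b : Nat.card (FixE E0b) = 3 := by
  rw [E0b, FixE_setL, card_F6b]

theorem E0a_subset : E0a ⊆ setOf O0 := by decide +kernel

theorem four_not_mem : pt 4 ∉ setOf O0 := by decide +kernel

theorem B5_subset_E0b : setOf B5 ⊆ E0b := by decide +kernel
theorem B5_subset_E0a : setOf B5 ⊆ E0a := by decide +kernel
theorem B5_subset_O0 : setOf B5 ⊆ setOf O0 := by decide +kernel
theorem card_B5 : (setOf B5).card = 5 := by decide +kernel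
theorem E0a_eq (p : GolayPt) : p ∈ E0a ↔ p ∈ setOf B5 ∨ p = pt 5 := by
  revert p; decide +kernel
theorem E0b_eq (p : GolayPt) : p ∈ E0b ↔ p ∈ setOf B5 ∨ p = pt 4 := by
  revert p; decide +kernel

/-- Six-element sets are images of `E0a` or `E0b`. -/
theorem six_normal_form {E : Finset GolayPt} (hE : E.card = 6) :
    ∃ τ ∈ M24, (τ • E0a = E ∧ ∃ o ∈ octads, E ⊆ o) ∨ (τ • E0b = E ∧ ¬ ∃ o ∈ octads, E ⊆ o) := by
  have hC1 : E.Nonempty := by
    rw [← Finset.card_pos]
    omega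
  obtain ⟨f, hf⟩ := hC1
  have hc5 : (E.erase f).card = 5 := by
    rw [Finset.card_erase_of_mem hf, hE]
  obtain ⟨y, hy⟩ := exists_embedding (s := E.erase f) (le_of_eq hc5.symm)
  obtain ⟨τ₁, hτ₁, h⟩ := exists_map_five y
  have hyE : ∀ i, y i ∈ E := fun i => Finset.mem_of_mem_erase (hy i)
  have hyf : ∀ i, y i ≠ f := fun i => Finset.ne_of_mem_erase (hy i)
  have hbase : ∀ p ∈ setOf B5, ∃ i : Fin 5, p = pt (baseF i) := fun p hp => mem_setOf_B5 hp
  have hbaseM : ∀ i : Fin 5, pt (baseF i) ∈ setOf B5 := pt_base_mem_B5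
  have hsurj : ∀ p ∈ E.erase f, ∃ i, y i = p := by
    have hsub : Finset.univ.map y = E.erase f := by
      apply Finset.eq_of_subset_of_card_le
      · intro z hz
        obtain ⟨i, -, rfl⟩ := Finset.mem_map.mp hz
        exact hy i
      · rw [hc5]
        simp
    intro p hp
    rw [← hsub] at hp
    obtain ⟨i, -, h'⟩ := Finset.mem_map.mp hp
    exact ⟨i, h'⟩
  -- the sixth point
  set f' := τ₁⁻¹ f with hf'
  have hf'1 : τ₁ f' = f := by simp [hf']
  have hf'B : f' ∉ setOf B5 := by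
    intro hc
    obtain ⟨i, hi⟩ := hbase _ hc
    apply hyf i
    rw [← h i, ← hi, hf'1]
  have hτ₁O : ∀ z, z ∈ setOf O0 → τ₁ z ∈ τ₁ • setOf O0 := fun z hz => Finset.mem_smul_finset.mpr ⟨z, hz, rfl⟩
  have hbuild : ∀ (b : ℕ) (L : Finset GolayPt), (∀ p, p ∈ L ↔ p ∈ setOf B5 ∨ p = pt b) → ∀ ρ ∈ M24,
      (∀ x ∈ setOf B5, ρ x = x) → ρ f' = pt b → (τ₁ * ρ⁻¹) • L = E := by
    intro b L hL ρ hρ hρ1 hρ2
    have hρinv : ∀ x ∈ setOf B5, ρ⁻¹ x = x := fun x hx => by
      rw [Equiv.Perm.inv_eq_iff_eq, hρ1 x hx]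
    have hρinv2 : ρ⁻¹ (pt b) = f' := by
      rw [Equiv.Perm.inv_eq_iff_eq, hρ2]
    apply Finset.eq_of_subset_of_card_le
    · intro z hz
      obtain ⟨w, hw, rfl⟩ := Finset.mem_smul_finset.mp hz
      rcases (hL w).mp hw with hw | rfl
      · obtain ⟨i, rfl⟩ := hbase w hw
        rw [Equiv.Perm.smul_def, Equiv.Perm.mul_apply, hρinv _ hw, h i]
        exact hyE i
      · rw [Equiv.Perm.smul_def, Equiv.Perm.mul_apply, hρinv2, hf'1]
        exact hf
    · rw [Finset.card_smul_finset, hE]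
      have hinsert : L = insert (pt b) (setOf B5) := by
        ext p
        rw [hL, Finset.mem_insert]
        tauto
      have hb : pt b ∉ setOf B5 := by
        intro hc
        have := hρ1 _ hc
        have h3 : pt b = f' := ρ.injective (this.trans hρ2.symm)
        rw [h3] at hc
        exact hf'B hc
      rw [hinsert, Finset.card_insert_of_notMem hb, card_B5]
  by_cases hO : f' ∈ setOf O0
  · -- on the octad
    have h5 : pt 5 ∈ setOf O0 := by decide +kernel
    have h5' : pt 5 ∉ setOf B5 := by decide +kernel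
    obtain ⟨ρ, hρ, hρ1, hρ2⟩ := exists_fix_five card_B5 O0_mem B5_subset_O0 (a := f') (b := pt 5)
      (Or.inl ⟨hO, hf'B, h5, h5'⟩)
    refine ⟨τ₁ * ρ⁻¹, M24.mul_mem hτ₁ (M24.inv_mem hρ), Or.inl ⟨hbuild 5 _ E0a_eq ρ hρ hρ1 hρ2, ?_⟩⟩
    refine ⟨(τ₁ * ρ⁻¹) • setOf O0, smul_mem_octads (M24.mul_mem hτ₁ (M24.inv_mem hρ)) O0_mem, ?_⟩
    rw [← hbuild 5 _ E0a_eq ρ hρ hρ1 hρ2]
    exact Finset.smul_finset_subset_smul_finset_iff.mpr E0a_subset
  · -- off the octad
    obtain ⟨ρ, hρ, hρ1, hρ2⟩ := exists_fix_five card_B5 O0_mem B5_subset_O0 (a := f') (b := pt 4)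
      (Or.inr ⟨hO, four_not_mem⟩)
    have hbE := hbuild 4 _ E0b_eq ρ hρ hρ1 hρ2
    have hM := M24.mul_mem hτ₁ (M24.inv_mem hρ)
    refine ⟨τ₁ * ρ⁻¹, hM, Or.inr ⟨hbE, ?_⟩⟩
    rintro ⟨o, ho, hEo⟩
    -- pull back
    set κ := τ₁ * ρ⁻¹ with hκ
    have ho' : κ⁻¹ • o ∈ octads := smul_mem_octads (M24.inv_mem hM) ho
    have hsub : E0b ⊆ κ⁻¹ • o := by
      have := Finset.smul_finset_subset_smul_finset_iff (a := κ⁻¹).mpr hEo
      rw [← hbE, smul_smul, inv_mul_cancel, one_smul] at this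
      exact this
    have heq : κ⁻¹ • o = setOf O0 := by
      apply two_octads_eq ho' O0_mem
      rw [← card_B5]
      apply Finset.card_le_card
      intro p hp
      exact Finset.mem_inter.mpr ⟨hsub (B5_subset_E0b hp), B5_subset_O0 hp⟩
    apply four_not_mem
    rw [← heq]
    exact hsub ((E0b_eq _).mpr (Or.inr rfl))

/-- **Every permutation of a six-element set is induced by the group of the code.** -/
theorem exists_extend_perm {E : Finset GolayPt} (hE : E.card = 6) (σ : Equiv.Perm ↥E) :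
    ∃ g ∈ M24, ∀ p : ↥E, g p = σ p := by
  have hC1 : E.Nonempty := by
    rw [← Finset.card_pos]
    omega
  obtain ⟨f, hf⟩ := hC1
  have hc5 : (E.erase f).card = 5 := by
    rw [Finset.card_erase_of_mem hf, hE]
  obtain ⟨x, hx⟩ := exists_embedding (s := E.erase f) (le_of_eq hc5.symm)
  have hxE : ∀ i, x i ∈ E := fun i => Finset.mem_of_mem_erase (hx i)
  have hxf : ∀ i, x i ≠ f := fun i => Finset.ne_of_mem_erase (hx i)
  let y : Fin 5 ↪ GolayPt :=
    ⟨fun i => ((σ ⟨x i, hxE i⟩ : ↥E) : GolayPt), by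
      intro i j hij
      have h1 := σ.injective (Subtype.ext hij)
      exact x.injective (congrArg Subtype.val h1)⟩
  have hy : ∀ i, y i = σ ⟨x i, hxE i⟩ := fun _ => rfl
  have hyE : ∀ i, y i ∈ E := fun i => (σ ⟨x i, hxE i⟩).2
  have hsurj : ∀ p ∈ E.erase f, ∃ i, x i = p := by
    have hsub : Finset.univ.map x = E.erase f := by
      apply Finset.eq_of_subset_of_card_le
      · intro z hz
        obtain ⟨i, -, rfl⟩ := Finset.mem_map.mp hz
        exact hx i
      · rw [hc5]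
        simp
    intro p hp
    rw [← hsub] at hp
    obtain ⟨i, -, h'⟩ := Finset.mem_map.mp hp
    exact ⟨i, h'⟩
  obtain ⟨τ, hτ, hτy⟩ := exists_map_tuple (le_refl 5) x y
  set F' := Finset.univ.map y with hF'
  have hF'card : F'.card = 5 := by simp [hF']
  obtain ⟨O', hO', hF'O⟩ := exists_octad_of_card hF'card
  have hyF : ∀ i, y i ∈ F' := fun i => Finset.mem_map_of_mem _ (Finset.mem_univ _)
  have hF'y : ∀ p ∈ F', ∃ i, y i = p := by
    intro p hp
    obtain ⟨i, -, h'⟩ := Finset.mem_map.mp hp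
    exact ⟨i, h'⟩
  -- the sixth point under `σ` and under `τ`
  set b : GolayPt := ((σ ⟨f, hf⟩ : ↥E) : GolayPt) with hb
  set a : GolayPt := τ f with ha
  have hbE : b ∈ E := (σ ⟨f, hf⟩).2
  have hbF' : b ∉ F' := by
    intro hc
    obtain ⟨i, hi⟩ := hF'y _ hc
    have h1 : σ ⟨x i, hxE i⟩ = σ ⟨f, hf⟩ := Subtype.ext hi
    have h2 := σ.injective h1
    exact hxf i (congrArg Subtype.val h2)
  have haF' : a ∉ F' := by
    intro hc
    obtain ⟨i, hi⟩ := hF'y _ hc
    rw [← hτy i] at hi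
    exact hxf i (τ.injective hi)
  -- every point of `E` is `b` or in `F'`
  have hEcov : ∀ p ∈ E, p = b ∨ p ∈ F' := by
    intro p hp
    obtain ⟨q, hq⟩ := σ.surjective ⟨p, hp⟩
    by_cases hqf : (q : GolayPt) = f
    · left
      have : q = ⟨f, hf⟩ := Subtype.ext hqf
      rw [this] at hq
      rw [hb, hq]
    · right
      obtain ⟨i, hi⟩ := hsurj q (Finset.mem_erase.mpr ⟨hqf, q.2⟩)
      have : q = ⟨x i, hxE i⟩ := Subtype.ext hi.symm
      rw [this] at hq
      have h3 : y i = p := congrArg Subtype.val hq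
      rw [← h3]
      exact hyF i
  have hF'E : F' ⊆ E := by
    intro p hp
    obtain ⟨i, rfl⟩ := hF'y p hp
    exact hyE i
  have hab : (a ∈ O' ∧ a ∉ F' ∧ b ∈ O' ∧ b ∉ F') ∨ (a ∉ O' ∧ b ∉ O') := by
    by_cases hbO : b ∈ O'
    · left
      refine ⟨?_, haF', hbO, hbF'⟩
      have hEO : E ⊆ O' := by
        intro p hp
        rcases hEcov p hp with rfl | h3
        · exact hbO
        · exact hF'O h3
      have hτO : τ • O' = O' := by
        apply two_octads_eq (smul_mem_octads hτ hO') hO'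
        rw [← hF'card]
        apply Finset.card_le_card
        intro p hp
        obtain ⟨i, rfl⟩ := hF'y p hp
        refine Finset.mem_inter.mpr ⟨?_, hF'O hp⟩
        exact Finset.mem_smul_finset.mpr ⟨x i, hEO (hxE i), hτy i⟩
      rw [← hτO]
      exact Finset.mem_smul_finset.mpr ⟨f, hEO hf, rfl⟩
    · right
      refine ⟨fun haO => hbO ?_, hbO⟩
      have hO'' : τ⁻¹ • O' ∈ octads := smul_mem_octads (M24.inv_mem hτ) hO'
      have hEO'' : E ⊆ τ⁻¹ • O' := by
        intro p hp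
        rw [Finset.mem_smul_finset]
        refine ⟨τ p, ?_, by simp⟩
        by_cases hpf : p = f
        · rw [hpf]
          exact haO
        · obtain ⟨i, rfl⟩ := hsurj p (Finset.mem_erase.mpr ⟨hpf, hp⟩)
          rw [hτy i]
          exact hF'O (hyF i)
      have heq : τ⁻¹ • O' = O' := by
        apply two_octads_eq hO'' hO'
        rw [← hF'card]
        apply Finset.card_le_card
        intro p hp
        exact Finset.mem_inter.mpr ⟨hEO'' (hF'E hp), hF'O hp⟩
      rw [← heq]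
      exact hEO'' hbE
  obtain ⟨ρ, hρ, hρ1, hρ2⟩ := exists_fix_five hF'card hO' hF'O hab
  refine ⟨ρ * τ, M24.mul_mem hρ hτ, ?_⟩
  rintro ⟨p, hp⟩
  by_cases hpf : p = f
  · subst hpf
    show (ρ * τ) p = b
    rw [Equiv.Perm.mul_apply]
    exact hρ2
  · obtain ⟨i, rfl⟩ := hsurj p (Finset.mem_erase.mpr ⟨hpf, hp⟩)
    show (ρ * τ) (x i) = y i
    rw [Equiv.Perm.mul_apply, hτy i]
    exact hρ1 _ (hyF i)

end Cfsg.Agent.Lib.M24Data.FixE
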