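import Cfsg.Agent.Lib.M24Data.OctadData
import Cfsg.Agent.Lib.M24Orb.OctadStab
import Cfsg.Agent.Lib.LargeExtra.OctadSet
import Cfsg.Agent.Lib.Classical.SLBasic

/-!
# The involution of the group of the code fixing an octad: the package at a base point
-/

set_option autoImplicit false
set_option linter.unusedSectionVars false
set_option linter.unusedVariables false
set_option linter.style.longLine false
set_option linter.unnecessarySimpa false
set_option linter.style.haveILetI false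

namespace Cfsg.Agent.Lib.M24Data.OctadInv

open Cfsg Cfsg.Agent.Lib.Golay.Core Cfsg.Agent.Lib.Golay.Perm Cfsg.Agent.Lib.Golay.Chain
  Cfsg.Agent.Lib.Golay.M24 Cfsg.Agent.Lib.M24Data.OctadPairs Cfsg.Agent.Lib.M24Data.Tree
  Cfsg.Agent.Lib.M24Data.Universe Cfsg.Agent.Lib.M24Data.CommTree Cfsg.Agent.Lib.M24Data.ListGroup
  Cfsg.Agent.Lib.M24Data.Classes Cfsg.Agent.Lib.M24Data.OctadData
  Cfsg.Agent.Lib.LargeExtra.OctadSet Cfsg.Agent.Lib.M24Orb.OctadStab

abbrev P24 := Equiv.Perm GolayPt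

theorem good_Z : Good Zo := good_of_goodC Z_good
theorem vZ : validPerm Zo = true := good_Z.1

theorem good_Q {q : ℕ} (h : q ∈ Ql) : Good q := good_of_goodC (allL_iff.mp Q_good q h)
theorem good_K {q : ℕ} (h : q ∈ Kl) : Good q := good_of_goodC (allL_iff.mp K_good q h)
theorem good_E {q : ℕ} (h : q ∈ El) : Good q := good_of_goodC (allL_iff.mp E_good q h)

/-- The identity test. -/
theorem g_of_isId {y : ℕ} (hy : validPerm y = true) (h : isId y = true) : g y = 1 := by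
  ext1 p
  have h1 := Nat.eq_of_beq_eq_true (allUpTo_iff.mp h _ (idx_lt p))
  rw [g_apply hy, h1, pt_idx]
  rfl

theorem isId_of_g {y : ℕ} (hy : validPerm y = true) (h : g y = 1) : isId y = true := by
  apply allUpTo_iff.mpr
  intro i hi
  have e := congrArg (fun f : P24 => f (pt i)) h
  simp only [g_pt hy hi, Equiv.Perm.one_apply] at e
  rw [pt_injOn (valid_img_lt hy hi) hi e]
  exact Nat.beq_refl _

/-! ## The subgroups -/

noncomputable def Qp : Subgroup P24 := subL Ql id_Q Q_good Q_closed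
noncomputable def Kp : Subgroup P24 := subL Kl id_K K_good K_closed
noncomputable def Ep : Subgroup P24 := subL El id_E E_good E_closed

theorem mem_Qp {σ : P24} : σ ∈ Qp ↔ ∃ P ∈ Ql, σ = g P := mem_subL
theorem mem_Kp {σ : P24} : σ ∈ Kp ↔ ∃ P ∈ Kl, σ = g P := mem_subL
theorem mem_Ep {σ : P24} : σ ∈ Ep ↔ ∃ P ∈ El, σ = g P := mem_subL

theorem Qp_le : Qp ≤ M24 := subL_le
theorem Kp_le : Kp ≤ M24 := subL_le
theorem Ep_le : Ep ≤ M24 := subL_le

theorem card_Qp : Nat.card Qp = 128 := by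
  have := card_subL Ql id_Q Q_good Q_closed Q_nd
  rw [Q_len] at this
  exact this

theorem card_Kp : Nat.card Kp = 168 := by
  have := card_subL Kl id_K K_good K_closed K_nd
  rw [K_len] at this
  exact this

theorem card_Ep : Nat.card Ep = 16 := by
  have := card_subL El id_E E_good E_closed E_nd
  rw [E_len] at this
  exact this

noncomputable def Q0 : Subgroup ↥M24 := Qp.subgroupOf M24
noncomputable def K0 : Subgroup ↥M24 := Kp.subgroupOf M24
noncomputable def E0 : Subgroup ↥M24 := Ep.subgroupOf M24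
noncomputable def z0 : ↥M24 := ⟨g Zo, good_Z.2⟩

theorem mem_Q0 {x : ↥M24} : x ∈ Q0 ↔ ∃ P ∈ Ql, x.1 = g P := mem_Qp
theorem mem_K0 {x : ↥M24} : x ∈ K0 ↔ ∃ P ∈ Kl, x.1 = g P := mem_Kp
theorem mem_E0 {x : ↥M24} : x ∈ E0 ↔ ∃ P ∈ El, x.1 = g P := mem_Ep

/-- An element of the group from a member of the list. -/
theorem g_comp' {P R : ℕ} (hP : Good P) (hR : Good R) : g (comp P R) = g P * g R := g_comp hP.1 hR.1

theorem Z_comm {σ : P24} (hσ : σ * g Zo = g Zo * σ) {i : ℕ} (hi : i < 24)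
    (hf : img Zo i = i) : img Zo (idx (σ (pt i))) = idx (σ (pt i)) := by
  have e := congrArg (fun f : P24 => f (pt i)) hσ
  simp only [Equiv.Perm.mul_apply] at e
  rw [g_pt vZ hi, hf] at e
  have := idx_g vZ (σ (pt i))
  rw [← e] at this
  exact this.symm

theorem Z_comm' {σ : P24} (hσ : σ * g Zo = g Zo * σ) {i : ℕ} (hi : i < 24)
    (hf : img Zo i ≠ i) : img Zo (idx (σ (pt i))) ≠ idx (σ (pt i)) := by
  intro h
  have e := congrArg (fun f : P24 => f (pt i)) hσ
  simp only [Equiv.Perm.mul_apply] at e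
  rw [g_pt vZ hi] at e
  have h2 := idx_g vZ (σ (pt i))
  rw [h, ← e] at h2
  have h3 := idx_injective h2
  have h4 := σ.injective h3
  exact hf (pt_injOn (valid_img_lt vZ hi) hi h4)

theorem img0 : img idP 0 = 0 := by decide +kernel
theorem img23 : img idP 23 = 23 := by decide +kernel
theorem Z23 : img Zo 23 = 23 := by decide +kernel
theorem Z0 : img Zo 0 ≠ 0 := by decide +kernel

/-- An element of the centralizer fixing 23 and 0 is in the list `Kl`. -/
theorem exists_K {σ : P24} (hσ : σ ∈ M24) (hc : σ * g Zo = g Zo * σ) (h23 : σ (pt 23) = pt 23)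
    (h0 : σ (pt 0) = pt 0) : ∃ P ∈ Kl, σ = g P := by
  obtain ⟨Q, hQ, hleaf, he⟩ := treeAux_sound (Φ := fun σ => σ * g Zo = g Zo * σ)
    (pruneS_sound vZ vZ) _ [0, 23] levels2 idP good_idP K_tree σ hσ hc (by
      intro x hx
      simp only [List.mem_cons, List.not_mem_nil, or_false] at hx
      rcases hx with rfl | rfl
      · rw [h0, img0]
      · rw [h23, img23]) (by
      intro x hx
      simp only [List.mem_cons, List.not_mem_nil, or_false] at hx
      rcases hx with rfl | rfl <;> norm_num)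
  exact ⟨Q, memL_iff.mp hleaf, he⟩

/-- Factorization of the centralizer. -/
theorem exists_fac {σ : P24} (hσ : σ ∈ M24) (hc : σ * g Zo = g Zo * σ) :
    ∃ q ∈ Ql, ∃ k ∈ Kl, σ = (g q)⁻¹ * g k := by
  have h1 := Z_comm hc (by norm_num : (23 : ℕ) < 24) Z23
  have h2 := Z_comm' hc (by norm_num : (0 : ℕ) < 24) Z0
  have h3 := allUpTo_iff.mp (allUpTo_iff.mp reg _ (idx_lt (σ (pt 23)))) _ (idx_lt (σ (pt 0)))
  rw [h1, Nat.beq_refl] at h3
  have h4 : Nat.beq (idx (σ (pt 0))) (idx (σ (pt 0))) = true := Nat.beq_refl _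
  have h5 : Nat.beq (img Zo (idx (σ (pt 0)))) (idx (σ (pt 0))) = false := by
    cases h : Nat.beq (img Zo (idx (σ (pt 0)))) (idx (σ (pt 0))) with
    | false => rfl
    | true => exact absurd (Nat.eq_of_beq_eq_true h) h2
  simp only [h5, Bool.not_true, Bool.false_or] at h3
  obtain ⟨q, hq, hq2⟩ := anyL_iff.mp h3
  simp only [Bool.and_eq_true] at hq2
  have e1 := Nat.eq_of_beq_eq_true hq2.1
  have e2 := Nat.eq_of_beq_eq_true hq2.2
  have hG := good_Q hq
  have hzq : g q * g Zo = g Zo * g q := by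
    have h6 := Nat.eq_of_beq_eq_true (allL_iff.mp Q_z q hq)
    have h7 := congrArg g h6
    rwa [g_comp hG.1 vZ, g_comp vZ hG.1] at h7
  have hd : (g q * σ) ∈ M24 := M24.mul_mem hG.2 hσ
  have hdc : (g q * σ) * g Zo = g Zo * (g q * σ) := by
    rw [mul_assoc, hc, ← mul_assoc, hzq, mul_assoc]
  obtain ⟨k, hk, he⟩ := exists_K hd hdc (by
      rw [Equiv.Perm.mul_apply, g_apply hG.1, e1]) (by
      rw [Equiv.Perm.mul_apply, g_apply hG.1, e2])
  refine ⟨q, hq, k, hk, ?_⟩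
  rw [← he]
  group

/-- Conjugates of members of `Ql` by members of `Kl`. -/
theorem K_conj {k q : ℕ} (hk : k ∈ Kl) (hq : q ∈ Ql) : ∃ q' ∈ Ql, g k * g q * (g k)⁻¹ = g q' := by
  obtain ⟨k', hk', h1⟩ := anyL_iff.mp (allL_iff.mp K_nrm k hk)
  simp only [Bool.and_eq_true] at h1
  have h2 := memL_iff.mp (allL_iff.mp h1.2 q hq)
  have hGk := good_K hk
  have hGk' := good_K hk'
  have hGq := good_Q hq
  have h3 := g_of_isId (valid_comp hGk.1 hGk'.1) h1.1
  rw [g_comp hGk.1 hGk'.1] at h3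
  have h4 : (g k)⁻¹ = g k' := (inv_eq_of_mul_eq_one_right h3)
  refine ⟨_, h2, ?_⟩
  rw [g_comp (valid_comp hGk.1 hGq.1) hGk'.1, g_comp hGk.1 hGq.1, h4]

/-! ## The linear action on the octad -/

abbrev V3 := Fin 3 → ZMod 2

def num (v : V3) : ℕ := (v 0).val + 2 * (v 1).val + 4 * (v 2).val
def ofN (n : ℕ) : V3 := ![((n % 2 : ℕ) : ZMod 2), ((n / 2 % 2 : ℕ) : ZMod 2), ((n / 4 % 2 : ℕ) : ZMod 2)]

theorem num_lt : ∀ v : V3, num v < 8 := by decide +kernel
theorem ofN_num : ∀ v : V3, ofN (num v) = v := by decide +kernel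
theorem num_ofN : ∀ n < 8, num (ofN n) = n := by decide +kernel
theorem num_add : ∀ v w : V3, num (v + w) = Nat.xor (num v) (num w) := by decide +kernel
theorem ofN_xor : ∀ a < 8, ∀ b < 8, ofN (Nat.xor a b) = ofN a + ofN b := by decide +kernel

/-- The action. -/
noncomputable def Tσ (σ : P24) (v : V3) : V3 := ofN (posO (idx (σ (pt (labO (num v))))))

theorem lab_fix {u : ℕ} (hu : u < 8) : img Zo (labO u) = labO u :=
  Nat.eq_of_beq_eq_true (lab_lt u hu).2.1

theorem T_mul {σ τ : P24} (hτ : τ * g Zo = g Zo * τ) (v : V3) : Tσ (σ * τ) v = Tσ σ (Tσ τ v) := by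
  have hn := num_lt v
  obtain ⟨hl, hf, hp⟩ := lab_lt _ hn
  have hy := Z_comm hτ hl (Nat.eq_of_beq_eq_true hf)
  obtain ⟨h1, h2⟩ := pos_lt _ (idx_lt (τ (pt (labO (num v))))) (by rw [hy]; exact Nat.beq_refl _)
  unfold Tσ
  rw [num_ofN _ h1, h2, pt_idx]
  rfl

theorem T_one (v : V3) : Tσ 1 v = v := by
  have hn := num_lt v
  obtain ⟨hl, hf, hp⟩ := lab_lt _ hn
  unfold Tσ
  rw [Equiv.Perm.one_apply, idx_pt hl, hp, ofN_num]

theorem T_add {P : ℕ} (hP : P ∈ Kl) (v w : V3) : Tσ (g P) (v + w) = Tσ (g P) v + Tσ (g P) w := by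
  have hG := good_K hP
  have hv := num_lt v
  have hw := num_lt w
  have hl := allUpTo_iff.mp (allUpTo_iff.mp (allL_iff.mp K_lin P hP) _ hv) _ hw
  have hl' := Nat.eq_of_beq_eq_true hl
  have hlt : ∀ u < 8, posO (img P (labO u)) < 8 := by
    intro u hu
    obtain ⟨h1, h2, h3⟩ := lab_lt _ hu
    have hc : g P * g Zo = g Zo * g P := by
      have h6 := Nat.eq_of_beq_eq_true (allL_iff.mp K_z P hP)
      have h7 := congrArg g h6
      rwa [g_comp hG.1 vZ, g_comp vZ hG.1] at h7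
    have hy := Z_comm hc h1 (Nat.eq_of_beq_eq_true h2)
    rw [g_pt hG.1 h1, idx_pt (valid_img_lt hG.1 h1)] at hy
    exact (pos_lt _ (valid_img_lt hG.1 h1) (by rw [hy]; exact Nat.beq_refl _)).1
  have e : ∀ u < 8, ∀ x : ℕ, x = u → idx (g P (pt (labO x))) = img P (labO u) := by
    intro u hu x hx
    subst hx
    obtain ⟨h1, h2, h3⟩ := lab_lt _ hu
    rw [g_pt hG.1 h1, idx_pt (valid_img_lt hG.1 h1)]
  have hxlt : Nat.xor (num v) (num w) < 8 := by
    rw [← num_add]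
    exact num_lt _
  unfold Tσ
  rw [e _ hxlt _ (num_add v w), e _ hv _ rfl, e _ hw _ rfl, hl', ofN_xor _ (hlt _ hv) _ (hlt _ hw)]

/-- The linear map of a member of `Kp`. -/
noncomputable def Lσ (σ : ↥Kp) : V3 →ₗ[ZMod 2] V3 :=
  AddMonoidHom.toZModLinearMap 2 (AddMonoidHom.mk' (Tσ σ.1) (by
    intro v w
    obtain ⟨P, hP, he⟩ := mem_Kp.mp σ.2
    rw [he]
    exact T_add hP v w))

theorem Lσ_apply (σ : ↥Kp) (v : V3) : Lσ σ v = Tσ σ.1 v := rfl

theorem Kp_comm {σ : P24} (h : σ ∈ Kp) : σ * g Zo = g Zo * σ := by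
  obtain ⟨P, hP, rfl⟩ := mem_Kp.mp h
  have h6 := Nat.eq_of_beq_eq_true (allL_iff.mp K_z P hP)
  have h7 := congrArg g h6
  rwa [g_comp (good_K hP).1 vZ, g_comp vZ (good_K hP).1] at h7

theorem Lσ_mul (σ τ : ↥Kp) : Lσ (σ * τ) = Lσ σ ∘ₗ Lσ τ := by
  refine LinearMap.ext fun v => ?_
  exact T_mul (Kp_comm τ.2) v

theorem Lσ_one : Lσ 1 = LinearMap.id := by
  refine LinearMap.ext fun v => ?_
  exact T_one v

/-- The matrix of a member of `Kp`. -/
noncomputable def Mσ (σ : ↥Kp) : Matrix (Fin 3) (Fin 3) (ZMod 2) := LinearMap.toMatrix' (Lσ σ)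

theorem Mσ_mul (σ τ : ↥Kp) : Mσ (σ * τ) = Mσ σ * Mσ τ := by
  unfold Mσ
  rw [Lσ_mul, LinearMap.toMatrix'_comp]

theorem Mσ_one : Mσ 1 = 1 := by
  unfold Mσ
  rw [Lσ_one, LinearMap.toMatrix'_id]

theorem zmod2_unit : ∀ x : ZMod 2, x ≠ 0 → x = 1 := by decide

theorem Mσ_det (σ : ↥Kp) : (Mσ σ).det = 1 := by
  apply zmod2_unit
  intro h
  have h1 : Mσ σ * Mσ σ⁻¹ = 1 := by
    rw [← Mσ_mul, mul_inv_cancel, Mσ_one]
  have h2 := congrArg Matrix.det h1
  rw [Matrix.det_mul, h, zero_mul, Matrix.det_one] at h2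
  exact zero_ne_one h2

/-- The homomorphism to the special linear group. -/
noncomputable def fK : ↥Kp →* Matrix.SpecialLinearGroup (Fin 3) (ZMod 2) :=
  MonoidHom.mk' (fun σ => ⟨Mσ σ, Mσ_det σ⟩) (fun σ τ => Subtype.ext (Mσ_mul σ τ))

/-- The octad. -/
theorem Om_octad : setOf Om ∈ octads := by
  obtain ⟨h1, h2, h3⟩ := Om_code
  exact (setOf_mem_octads_iff h3).2 ⟨h1, h2⟩

theorem mem_Om {p : GolayPt} : p ∈ setOf Om ↔ g Zo p = p := by
  rw [mem_setOf, Om_spec _ (idx_lt p), g_apply vZ]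
  constructor
  · intro h
    rw [Nat.eq_of_beq_eq_true h, pt_idx]
  · intro h
    have h1 := congrArg idx h
    rw [idx_pt (valid_img_lt vZ (idx_lt p))] at h1
    rw [h1]
    exact Nat.beq_refl _

theorem Z0_notMem : pt 0 ∉ setOf Om := by
  rw [mem_Om, g_pt vZ (by norm_num)]
  intro h
  exact Z0 (pt_injOn (valid_img_lt vZ (by norm_num)) (by norm_num) h)

/-- An element of the group fixing the octad pointwise and the point `0` is trivial. -/
theorem eq_one_of_fix {σ : P24} (hσ : σ ∈ M24) (h1 : ∀ p, g Zo p = p → σ p = p) (h2 : σ (pt 0) = pt 0) :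
    σ = 1 := by
  refine fix_octad_reg Om_octad ⟨hσ, ?_⟩ Z0_notMem h2
  show σ ∈ fixingSubgroup _ _
  rw [mem_fixingSubgroup_iff]
  intro p hp
  exact h1 p (mem_Om.1 hp)

theorem fK_inj : Function.Injective fK := by
  rw [injective_iff_map_eq_one]
  intro σ hσ
  have h1 : Mσ σ = 1 := congrArg Subtype.val hσ
  have h2 : Lσ σ = LinearMap.id := by
    have := congrArg Matrix.toLin' h1
    simpa [Mσ] using this
  have h3 : ∀ v, Tσ σ.1 v = v := fun v => congrArg (fun f : V3 →ₗ[ZMod 2] V3 => f v) h2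
  have hm := Kp_le σ.2
  have h4 : σ.1 = 1 := by
    obtain ⟨P, hP, he⟩ := mem_Kp.mp σ.2
    apply eq_one_of_fix hm
    · intro p hp
      have hi : img Zo (idx p) = idx p := by
        rw [← idx_g vZ, hp]
      obtain ⟨h5, h6⟩ := pos_lt _ (idx_lt p) (by rw [hi]; exact Nat.beq_refl _)
      have h7 := h3 (ofN (posO (idx p)))
      unfold Tσ at h7
      rw [num_ofN _ h5, h6, pt_idx] at h7
      have hy := Z_comm (Kp_comm σ.2) (idx_lt p) hi
      rw [pt_idx] at hy
      obtain ⟨h8, h9⟩ := pos_lt _ (idx_lt (σ.1 p)) (by rw [hy]; exact Nat.beq_refl _)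
      have h10 := congrArg num h7
      rw [num_ofN _ h8, num_ofN _ h5] at h10
      have h11 : idx (σ.1 p) = idx p := by
        rw [← h9, h10, h6]
      exact idx_injective h11
    · have h5 := (allL_iff.mp K_fix P hP)
      simp only [Bool.and_eq_true] at h5
      rw [he, g_pt (good_K hP).1 (by norm_num), Nat.eq_of_beq_eq_true h5.2]
  exact Subtype.ext h4

theorem card_SL3 : Nat.card (Matrix.SpecialLinearGroup (Fin 3) (ZMod 2)) = 168 := by
  haveI : Fact (Nat.Prime 2) := ⟨Nat.prime_two⟩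
  have h1 := Cfsg.Agent.Lib.Classical.SLBasic.card_gl_eq_mul_card_sl (F := ZMod 2) (ι := Fin 3)
  have h2 := Matrix.card_GL_field (𝔽 := ZMod 2) 3
  rw [h1] at h2
  simpa [ZMod.card, Fin.prod_univ_three] using h2

theorem iso_Kp : Nonempty (↥Kp ≃* Matrix.SpecialLinearGroup (Fin 3) (ZMod 2)) := by
  have hb : Function.Bijective fK :=
    (Nat.bijective_iff_injective_and_card fK).2 ⟨fK_inj, by rw [card_Kp, card_SL3]⟩
  exact ⟨MulEquiv.ofBijective fK hb⟩

theorem iso_K0 : Nonempty (↥K0 ≃* Matrix.SpecialLinearGroup (Fin 3) (ZMod 2)) := by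
  obtain ⟨e⟩ := iso_Kp
  exact ⟨(Subgroup.subgroupOfEquivOfLe Kp_le).trans e⟩


/-! ## The package at the base point -/

theorem iap (f : P24) (x : GolayPt) : f⁻¹ (f x) = x := by simp
theorem aip (f : P24) (x : GolayPt) : f (f⁻¹ x) = x := by simp

theorem comp_eq_of_g {a b c d : ℕ} (ha : validPerm a = true) (hb : validPerm b = true)
    (hc : validPerm c = true) (hd : validPerm d = true) (h : g a * g b = g c * g d) :
    comp a b = comp c d := by
  unfold comp
  apply pack_congr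
  intro i hi
  have e := congrArg (fun f : P24 => f (pt i)) h
  simp only [Equiv.Perm.mul_apply] at e
  rw [g_pt hb hi, g_pt ha (valid_img_lt hb hi), g_pt hd hi, g_pt hc (valid_img_lt hd hi)] at e
  exact pt_injOn (valid_img_lt ha (valid_img_lt hb hi)) (valid_img_lt hc (valid_img_lt hd hi)) e

theorem Q_comm_z {P : ℕ} (hP : P ∈ Ql) : g P * g Zo = g Zo * g P := by
  have h6 := Nat.eq_of_beq_eq_true (allL_iff.mp Q_z P hP)
  have h7 := congrArg g h6
  rwa [g_comp (good_Q hP).1 vZ, g_comp vZ (good_Q hP).1] at h7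

theorem Z_inv : (g Zo)⁻¹ = g Zo := by
  apply inv_eq_of_mul_eq_one_left
  rw [← g_comp vZ vZ]
  exact g_of_isId (valid_comp vZ vZ) Z_sq

theorem mem_Q0' {x : ↥M24} : x ∈ Q0 ↔ x.1 ∈ Qp := Iff.rfl
theorem mem_K0' {x : ↥M24} : x ∈ K0 ↔ x.1 ∈ Kp := Iff.rfl
theorem mem_E0' {x : ↥M24} : x ∈ E0 ↔ x.1 ∈ Ep := Iff.rfl

theorem Q_cm' {P R : ℕ} (hP : P ∈ Ql) (hR : R ∈ Ql) :
    g P * g R = g R * g P ∨ g P * g R = g Zo * (g R * g P) := by
  have h := allL_iff.mp (allL_iff.mp Q_cm P hP) R hR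
  simp only [Bool.or_eq_true] at h
  have hvP := (good_Q hP).1
  have hvR := (good_Q hR).1
  rcases h with h | h
  · left
    have h2 := congrArg g (Nat.eq_of_beq_eq_true h)
    rwa [g_comp hvP hvR, g_comp hvR hvP] at h2
  · right
    have h2 := congrArg g (Nat.eq_of_beq_eq_true h)
    rwa [g_comp hvP hvR, g_comp vZ (valid_comp hvR hvP), g_comp hvR hvP] at h2

/-- The centralizer statement. -/
theorem cen_base (x : ↥M24) (hx : ∀ y ∈ Q0, x * y = y * x) : x = 1 ∨ x = z0 := by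
  have hval : ∀ y ∈ Q0, x.1 * y.1 = y.1 * x.1 := fun y hy => congrArg Subtype.val (hx y hy)
  have hval' : ∀ R ∈ Ql, x.1 * g R = g R * x.1 := by
    intro R hR
    exact hval ⟨g R, (good_Q hR).2⟩ (mem_Q0.2 ⟨R, hR, rfl⟩)
  have hxz : x.1 * g Zo = g Zo * x.1 := hval' Zo Z_Q
  obtain ⟨q, hq, k, hk, he⟩ := exists_fac x.2 hxz
  obtain ⟨q', hq', he'⟩ := mem_Qp.1 (Qp.inv_mem (mem_Qp.2 ⟨q, hq, rfl⟩))
  rw [he'] at he
  have hvq' := (good_Q hq').1
  have hvk := (good_K hk).1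
  have hkid : isId k = true := by
    have h := allL_iff.mp K_cen k hk
    simp only [Bool.or_eq_true] at h
    rcases h with h | h
    · exact h
    · exfalso
      obtain ⟨s, hs, h1⟩ := anyL_iff.mp h
      simp only [Bool.and_eq_true, Bool.not_eq_eq_eq_not, Bool.not_true] at h1
      have hvs := (good_Q hs).1
      have hxs := hval' s hs
      rw [he] at hxs
      rcases Q_cm' hq' hs with h2 | h2
      · have h3 : g k * g s = g s * g k := by
          have h4 : g q' * (g k * g s) = g q' * (g s * g k) := by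
            calc g q' * (g k * g s) = g q' * g k * g s := by group
              _ = g s * (g q' * g k) := hxs
              _ = (g s * g q') * g k := by group
              _ = (g q' * g s) * g k := by rw [h2]
              _ = g q' * (g s * g k) := by group
          exact mul_left_cancel h4
        have h5 := comp_eq_of_g hvk hvs hvs hvk h3
        rw [h5, Nat.beq_refl] at h1
        exact absurd h1.1 (by simp)
      · have h3 : g k * g s = g Zo * (g s * g k) := by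
          have h4 : g q' * (g k * g s) = g q' * (g Zo * (g s * g k)) := by
            have hzq := Q_comm_z hq'
            have h6 : g s * g q' = g Zo * (g q' * g s) := by
              rw [h2, ← mul_assoc, ← mul_assoc]
              have : g Zo * g Zo = 1 := by
                rw [← g_comp vZ vZ]
                exact g_of_isId (valid_comp vZ vZ) Z_sq
              rw [this, one_mul]
            calc g q' * (g k * g s) = g q' * g k * g s := by group
              _ = g s * (g q' * g k) := hxs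
              _ = (g s * g q') * g k := by group
              _ = g Zo * (g q' * g s) * g k := by rw [h6]
              _ = (g Zo * g q') * (g s * g k) := by group
              _ = (g q' * g Zo) * (g s * g k) := by rw [hzq]
              _ = g q' * (g Zo * (g s * g k)) := by group
          exact mul_left_cancel h4
        have h5 : comp k s = comp Zo (comp s k) := by
          have h7 : g k * g s = g Zo * g (comp s k) := by rw [g_comp hvs hvk]; exact h3
          exact comp_eq_of_g hvk hvs vZ (valid_comp hvs hvk) h7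
        rw [h5, Nat.beq_refl] at h1
        exact absurd h1.2 (by simp)
  have hk1 := g_of_isId hvk hkid
  rw [hk1, mul_one] at he
  have h := allL_iff.mp Q_cen q' hq'
  simp only [Bool.or_eq_true] at h
  rcases h with (h | h) | h
  · left
    apply Subtype.ext
    rw [he]
    exact g_of_isId hvq' h
  · right
    apply Subtype.ext
    rw [he, Nat.eq_of_beq_eq_true h]
    rfl
  · exfalso
    obtain ⟨y, hy, h1⟩ := anyL_iff.mp h
    have hy' := hval' y hy
    rw [he] at hy'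
    have h5 := comp_eq_of_g hvq' (good_Q hy).1 (good_Q hy).1 hvq' hy'
    rw [h5, Nat.beq_refl] at h1
    exact absurd h1 (by simp)

/-! ## Subgroups of odd order -/

/-- The size of the orbit of a point divides the order of the group. -/
theorem orbit_dvd (H : Subgroup ↥M24) (p : GolayPt) :
    ({x | ∃ σ ∈ H, σ.1 p = x} : Set GolayPt).ncard ∣ Nat.card H := by
  have h1 : ({x | ∃ σ ∈ H, σ.1 p = x} : Set GolayPt) = MulAction.orbit ↥H p := by
    ext x
    constructor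
    · rintro ⟨σ, hσ, rfl⟩
      exact ⟨⟨σ, hσ⟩, rfl⟩
    · rintro ⟨σ, rfl⟩
      exact ⟨σ.1, σ.2, rfl⟩
  rw [h1, ← MulAction.index_stabilizer]
  exact Subgroup.index_dvd_card _

theorem z0_val : z0.1 = g Zo := rfl

theorem Q0_fix {q : ↥M24} (hq : q ∈ Q0) : q.1 * g Zo = g Zo * q.1 := by
  obtain ⟨P, hP, he⟩ := mem_Q0.1 hq
  rw [he]
  exact Q_comm_z hP

theorem fx_of {q : ↥M24} (hq : q ∈ Q0) {p : GolayPt} (h : g Zo p = p) : g Zo (q.1 p) = q.1 p := by
  have e := congrArg (fun f : P24 => f p) (Q0_fix hq)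
  simp only [Equiv.Perm.mul_apply] at e
  rw [h] at e
  exact e.symm

theorem nfx_of {q : ↥M24} (hq : q ∈ Q0) {p : GolayPt} (h : g Zo p ≠ p) : g Zo (q.1 p) ≠ q.1 p := by
  intro h2
  have e := congrArg (fun f : P24 => f p) (Q0_fix hq)
  simp only [Equiv.Perm.mul_apply] at e
  rw [h2] at e
  exact h (q.1.injective e)

theorem trans_23 {p : GolayPt} (h : g Zo p = p) : ∃ q ∈ Q0, q.1 p = pt 23 := by
  have hi : img Zo (idx p) = idx p := by rw [← idx_g vZ, h]
  have h3 := allUpTo_iff.mp (allUpTo_iff.mp reg _ (idx_lt p)) 0 (by norm_num)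
  rw [hi, Nat.beq_refl] at h3
  have h5 : Nat.beq (img Zo 0) 0 = false := by decide +kernel
  simp only [h5, Bool.not_true, Bool.false_or] at h3
  obtain ⟨q, hq, hq2⟩ := anyL_iff.mp h3
  simp only [Bool.and_eq_true] at hq2
  refine ⟨⟨g q, (good_Q hq).2⟩, mem_Q0.2 ⟨q, hq, rfl⟩, ?_⟩
  show g q p = pt 23
  rw [g_apply (good_Q hq).1, Nat.eq_of_beq_eq_true hq2.1]

theorem trans_O {p p' : GolayPt} (h : g Zo p = p) (h' : g Zo p' = p') : ∃ q ∈ Q0, q.1 p = p' := by
  obtain ⟨q, hq, e⟩ := trans_23 h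
  obtain ⟨q', hq', e'⟩ := trans_23 h'
  refine ⟨q'⁻¹ * q, mul_mem (inv_mem hq') hq, ?_⟩
  show (q'.1)⁻¹ (q.1 p) = p'
  rw [e, ← e', iap]

theorem E0_le_Q0 : E0 ≤ Q0 := by
  intro x hx
  obtain ⟨P, hP, he⟩ := mem_E0.1 hx
  exact mem_Q0.2 ⟨P, memL_iff.mp (allL_iff.mp E_Q P hP), he⟩

theorem E0_fix {e : ↥M24} (he : e ∈ E0) {p : GolayPt} (h : g Zo p = p) : e.1 p = p := by
  obtain ⟨P, hP, hv⟩ := mem_E0.1 he
  have hi : img Zo (idx p) = idx p := by rw [← idx_g vZ, h]
  have h3 := allUpTo_iff.mp (allL_iff.mp E_fix P hP) _ (idx_lt p)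
  rw [hi, Nat.beq_refl] at h3
  simp only [Bool.not_true, Bool.false_or] at h3
  rw [hv, g_apply (good_E hP).1, Nat.eq_of_beq_eq_true h3, pt_idx]

theorem E0_to0 {c : GolayPt} (h : g Zo c ≠ c) : ∃ e ∈ E0, e.1 c = pt 0 := by
  have hi : img Zo (idx c) ≠ idx c := by
    intro h2
    apply h
    rw [g_apply vZ, h2, pt_idx]
  have h3 := allUpTo_iff.mp E_tr _ (idx_lt c)
  have h5 : Nat.beq (img Zo (idx c)) (idx c) = false := by
    cases h6 : Nat.beq (img Zo (idx c)) (idx c) with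
    | false => rfl
    | true => exact absurd (Nat.eq_of_beq_eq_true h6) hi
  simp only [h5, Bool.false_or] at h3
  obtain ⟨e, he, he2⟩ := anyL_iff.mp h3
  refine ⟨⟨g e, (good_E he).2⟩, mem_E0.2 ⟨e, he, rfl⟩, ?_⟩
  show g e c = pt 0
  rw [g_apply (good_E he).1, Nat.eq_of_beq_eq_true he2]

theorem trans_C {c c' : GolayPt} (h : g Zo c ≠ c) (h' : g Zo c' ≠ c') : ∃ e ∈ E0, e.1 c = c' := by
  obtain ⟨q, hq, e⟩ := E0_to0 h
  obtain ⟨q', hq', e'⟩ := E0_to0 h'
  refine ⟨q'⁻¹ * q, mul_mem (inv_mem hq') hq, ?_⟩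
  show (q'.1)⁻¹ (q.1 c) = c'
  rw [e, ← e', iap]

theorem card_Q0 : Nat.card Q0 = 128 := by
  rw [← card_Qp]
  exact Nat.card_congr (Subgroup.subgroupOfEquivOfLe Qp_le).toEquiv

theorem card_E0 : Nat.card E0 = 16 := by
  rw [← card_Ep]
  exact Nat.card_congr (Subgroup.subgroupOfEquivOfLe Ep_le).toEquiv

theorem card_golay_univ : (Set.univ : Set GolayPt).ncard = 24 := by
  rw [Set.ncard_univ, Nat.card_eq_fintype_card]
  exact card_golayPt

theorem odd_base (K₁ : Subgroup ↥M24) (hodd : Odd (Nat.card K₁))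
    (hn : Q0 ≤ Subgroup.normalizer (K₁ : Set ↥M24)) : K₁ = ⊥ := by
  have hconj : ∀ q ∈ Q0, ∀ τ ∈ K₁, q * τ * q⁻¹ ∈ K₁ := fun q hq τ hτ =>
    (Subgroup.mem_normalizer_iff.1 (hn hq) τ).1 hτ
  -- Claim 1
  have c1 : ∀ p, g Zo p = p → ∀ σ ∈ K₁, g Zo (σ.1 p) = σ.1 p := by
    intro p hp σ hσ
    by_contra hc
    have h1 : ∀ x, g Zo x ≠ x → ∃ τ ∈ K₁, τ.1 p = x := by
      intro x hx
      obtain ⟨e, he, hee⟩ := trans_C hc hx
      refine ⟨e * σ * e⁻¹, hconj e (E0_le_Q0 he) σ hσ, ?_⟩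
      show e.1 (σ.1 ((e.1)⁻¹ p)) = x
      have h2 : (e.1)⁻¹ p = p := by
        rw [Equiv.Perm.inv_eq_iff_eq]
        exact (E0_fix he hp).symm
      rw [h2, hee]
    have h2 : ∀ x, ∃ τ ∈ K₁, τ.1 p = x := by
      intro x
      by_cases hx : g Zo x = x
      · obtain ⟨q, hq, hqe⟩ := trans_O hp hx
        obtain ⟨τ, hτ, hτe⟩ := h1 (q.1 (σ.1 p)) (nfx_of hq hc)
        have hρ := hconj q hq σ hσ
        refine ⟨(q * σ * q⁻¹)⁻¹ * τ, mul_mem (inv_mem hρ) hτ, ?_⟩
        show ((q * σ * q⁻¹).1)⁻¹ (τ.1 p) = x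
        rw [Equiv.Perm.inv_eq_iff_eq, hτe]
        show q.1 (σ.1 p) = q.1 (σ.1 ((q.1)⁻¹ x))
        rw [← hqe, iap]
      · exact h1 x hx
    have h3 : ({x | ∃ σ ∈ K₁, σ.1 p = x} : Set GolayPt) = Set.univ := by
      ext x
      simp only [Set.mem_univ, iff_true]
      exact h2 x
    have h4 := orbit_dvd K₁ p
    rw [h3, card_golay_univ] at h4
    have h5 : 2 ∣ Nat.card K₁ := Dvd.dvd.trans (by norm_num) h4
    exact (Nat.not_even_iff_odd.2 hodd) (even_iff_two_dvd.2 h5)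
  -- Claim 2
  have c2 : ∀ p, g Zo p = p → ∀ σ ∈ K₁, σ.1 p = p := by
    intro p hp σ hσ
    let S : Subgroup ↥M24 :=
      { carrier := {q | q ∈ Q0 ∧ ∃ τ ∈ K₁, q.1 p = τ.1 p}
        mul_mem' := by
          rintro a b ⟨ha, τa, hτa, hae⟩ ⟨hb, τb, hτb, hbe⟩
          refine ⟨mul_mem ha hb, (a * τb * a⁻¹) * τa, mul_mem (hconj a ha τb hτb) hτa, ?_⟩
          show a.1 (b.1 p) = a.1 (τb.1 ((a.1)⁻¹ (τa.1 p)))
          rw [hbe, ← hae, iap]
        one_mem' := ⟨one_mem _, 1, one_mem _, rfl⟩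
        inv_mem' := by
          rintro a ⟨ha, τa, hτa, hae⟩
          have hai := inv_mem ha
          have h1 : a⁻¹ * τa * a ∈ K₁ := by
            have h2 := hconj a⁻¹ hai τa hτa
            rwa [inv_inv] at h2
          refine ⟨hai, (a⁻¹ * τa * a)⁻¹, inv_mem h1, ?_⟩
          show (a.1)⁻¹ p = ((a.1)⁻¹ * τa.1 * a.1)⁻¹ p
          rw [eq_comm, Equiv.Perm.inv_eq_iff_eq]
          show p = (a.1)⁻¹ (τa.1 (a.1 ((a.1)⁻¹ p)))
          rw [aip, ← hae, iap] }
    have hS : ∀ q, q ∈ S ↔ (q ∈ Q0 ∧ ∃ τ ∈ K₁, q.1 p = τ.1 p) := fun q => Iff.rfl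
    have hSle : S ≤ Q0 := fun q hq => ((hS q).1 hq).1
    have heq : ({x | ∃ σ ∈ S, σ.1 p = x} : Set GolayPt) = {x | ∃ σ ∈ K₁, σ.1 p = x} := by
      ext x
      constructor
      · rintro ⟨s, hs, rfl⟩
        obtain ⟨_, τ, hτ, he⟩ := (hS s).1 hs
        exact ⟨τ, hτ, he.symm⟩
      · rintro ⟨τ, hτ, rfl⟩
        obtain ⟨q, hq, he⟩ := trans_O hp (c1 p hp τ hτ)
        exact ⟨q, (hS q).2 ⟨hq, τ, hτ, he⟩, he⟩
    have h1 := orbit_dvd S p
    rw [heq] at h1
    have h2 := orbit_dvd K₁ p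
    have h3 : ({x | ∃ σ ∈ K₁, σ.1 p = x} : Set GolayPt).ncard ∣ 2 ^ 7 := by
      refine h1.trans ?_
      have := Subgroup.card_dvd_of_le hSle
      rw [card_Q0] at this
      exact this
    have h4 : Nat.Coprime (({x | ∃ σ ∈ K₁, σ.1 p = x} : Set GolayPt).ncard) (2 ^ 7) := by
      apply Nat.Coprime.pow_right
      apply Nat.Coprime.symm
      rw [Nat.coprime_two_left]
      exact Odd.of_dvd_nat hodd h2
    have h5 : ({x | ∃ σ ∈ K₁, σ.1 p = x} : Set GolayPt).ncard = 1 := Nat.Coprime.eq_one_of_dvd h4 h3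
    obtain ⟨a, ha⟩ := Set.ncard_eq_one.1 h5
    have hp1 : p ∈ ({x | ∃ σ ∈ K₁, σ.1 p = x} : Set GolayPt) := ⟨1, one_mem _, rfl⟩
    have hp2 : σ.1 p ∈ ({x | ∃ σ ∈ K₁, σ.1 p = x} : Set GolayPt) := ⟨σ, hσ, rfl⟩
    rw [ha] at hp1 hp2
    exact (Set.mem_singleton_iff.1 hp2).trans (Set.mem_singleton_iff.1 hp1).symm
  -- Claim 3
  rw [eq_bot_iff]
  intro σ hσ
  rw [Subgroup.mem_bot]
  have h0 : g Zo (σ.1 (pt 0)) ≠ σ.1 (pt 0) := by
    intro h1
    have h2 := c2 _ h1 σ hσ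
    have h3 := σ.1.injective h2
    rw [h3] at h1
    rw [g_pt vZ (by norm_num)] at h1
    exact Z0 (pt_injOn (valid_img_lt vZ (by norm_num)) (by norm_num) h1)
  obtain ⟨e, he, hee⟩ := E0_to0 h0
  have h1 : e.1 * σ.1 = 1 := by
    apply eq_one_of_fix (M24.mul_mem e.2 σ.2)
    · intro p hp
      rw [Equiv.Perm.mul_apply, c2 p hp σ hσ, E0_fix he hp]
    · rw [Equiv.Perm.mul_apply, hee]
  have h2 : σ.1 = (e.1)⁻¹ := eq_inv_of_mul_eq_one_right h1
  have h3 : σ ∈ E0 := by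
    have : σ = e⁻¹ := Subtype.ext h2
    rw [this]
    exact inv_mem he
  have h4 : σ ^ 2 = 1 := by
    obtain ⟨P, hP, hv⟩ := mem_E0.1 h3
    apply Subtype.ext
    show σ.1 ^ 2 = 1
    rw [pow_two, hv, ← g_comp (good_E hP).1 (good_E hP).1]
    exact g_of_isId (valid_comp (good_E hP).1 (good_E hP).1) (allL_iff.mp E_sq P hP)
  have h5 : (⟨σ, hσ⟩ : ↥K₁) ^ Nat.card K₁ = 1 := pow_card_eq_one'
  have h6 : σ ^ Nat.card K₁ = 1 := congrArg Subtype.val h5
  have h7 := (pow_gcd_eq_one (a := σ) (m := 2) (n := Nat.card K₁)).2 ⟨h4, h6⟩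
  have h8 : Nat.gcd 2 (Nat.card K₁) = 1 := by
    rw [← Nat.coprime_iff_gcd_eq_one, Nat.coprime_two_left]
    exact hodd
  rwa [h8, pow_one] at h7

theorem H_mem2 : ∀ p ∈ Hl, p.2 ∈ Kl := by decide +kernel

/-- The package at the base point. -/
theorem base : OS z0 Q0 K0 E0 where
  zz := Subtype.ext (by
    show g Zo * g Zo = 1
    rw [← g_comp vZ vZ]
    exact g_of_isId (valid_comp vZ vZ) Z_sq)
  z1 := fun h => by
    have h1 : g Zo = 1 := congrArg Subtype.val h
    have := isId_of_g vZ h1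
    rw [Z_not_id] at this
    exact absurd this (by simp)
  zQ := mem_Q0.2 ⟨Zo, Z_Q, rfl⟩
  qz := fun x hx => Subtype.ext (Q0_fix hx)
  sq := by
    intro x hx
    obtain ⟨P, hP, he⟩ := mem_Q0.1 hx
    have h := allL_iff.mp Q_sq P hP
    simp only [Bool.or_eq_true] at h
    have hv := (good_Q hP).1
    rcases h with h | h
    · left
      apply Subtype.ext
      show x.1 * x.1 = 1
      rw [he, ← g_comp hv hv]
      exact g_of_isId (valid_comp hv hv) h
    · right
      apply Subtype.ext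
      show x.1 * x.1 = g Zo
      rw [he, ← g_comp hv hv, Nat.eq_of_beq_eq_true h]
  cm := by
    intro x hx y hy
    obtain ⟨P, hP, he⟩ := mem_Q0.1 hx
    obtain ⟨R, hR, he'⟩ := mem_Q0.1 hy
    rcases Q_cm' hP hR with h | h
    · left
      apply Subtype.ext
      show x.1 * y.1 = y.1 * x.1
      rw [he, he', h]
    · right
      apply Subtype.ext
      show x.1 * y.1 = g Zo * (y.1 * x.1)
      rw [he, he', h]
  cen := cen_base
  nc := by
    obtain ⟨a, ha, h1⟩ := anyL_iff.mp Q_nc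
    obtain ⟨b, hb, h2⟩ := anyL_iff.mp h1
    refine ⟨⟨g a, (good_Q ha).2⟩, mem_Q0.2 ⟨a, ha, rfl⟩, ⟨g b, (good_Q hb).2⟩, mem_Q0.2 ⟨b, hb, rfl⟩, ?_⟩
    intro h
    have h3 : g a * g b = g b * g a := congrArg Subtype.val h
    have h5 := comp_eq_of_g (good_Q ha).1 (good_Q hb).1 (good_Q hb).1 (good_Q ha).1 h3
    rw [h5, Nat.beq_refl] at h2
    exact absurd h2 (by simp)
  cardQ := card_Q0
  EQ := E0_le_Q0
  Es := by
    intro x hx
    obtain ⟨P, hP, he⟩ := mem_E0.1 hx
    apply Subtype.ext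
    show x.1 * x.1 = 1
    rw [he, ← g_comp (good_E hP).1 (good_E hP).1]
    exact g_of_isId (valid_comp (good_E hP).1 (good_E hP).1) (allL_iff.mp E_sq P hP)
  cardE := card_E0
  kz := by
    intro k hk
    apply Subtype.ext
    exact Kp_comm hk
  QK := by
    intro x hx hx'
    obtain ⟨P, hP, he⟩ := mem_Q0.1 hx
    obtain ⟨R, hR, he'⟩ := mem_K0.1 hx'
    have h5 := allL_iff.mp K_fix R hR
    simp only [Bool.and_eq_true] at h5
    have hvP := (good_Q hP).1
    have hvR := (good_K hR).1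
    have e0 : img P 0 = 0 := by
      have e1 : g P (pt 0) = pt 0 := by
        rw [← he, he', g_pt hvR (by norm_num), Nat.eq_of_beq_eq_true h5.2]
      rw [g_pt hvP (by norm_num)] at e1
      exact pt_injOn (valid_img_lt hvP (by norm_num)) (by norm_num) e1
    have e23 : img P 23 = 23 := by
      have e1 : g P (pt 23) = pt 23 := by
        rw [← he, he', g_pt hvR (by norm_num), Nat.eq_of_beq_eq_true h5.1]
      rw [g_pt hvP (by norm_num)] at e1
      exact pt_injOn (valid_img_lt hvP (by norm_num)) (by norm_num) e1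
    have h6 := allL_iff.mp Q_fix P hP
    rw [e0, e23] at h6
    simp only [Bool.or_eq_true] at h6
    rcases h6 with h6 | h6
    · exact absurd h6 (by decide +kernel)
    · apply Subtype.ext
      rw [he]
      exact g_of_isId hvP h6
  fac := by
    intro c hc
    have hc' : c.1 * g Zo = g Zo * c.1 := congrArg Subtype.val hc
    obtain ⟨q, hq, k, hk, he⟩ := exists_fac c.2 hc'
    refine ⟨⟨(g q)⁻¹, M24.inv_mem (good_Q hq).2⟩, mem_Q0'.2 (Qp.inv_mem (mem_Qp.2 ⟨q, hq, rfl⟩)),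
      ⟨g k, (good_K hk).2⟩, mem_K0.2 ⟨k, hk, rfl⟩, ?_⟩
    exact Subtype.ext he
  nrm := by
    intro c hc r hr
    have hc' : c.1 * g Zo = g Zo * c.1 := congrArg Subtype.val hc
    obtain ⟨q, hq, k, hk, he⟩ := exists_fac c.2 hc'
    obtain ⟨R, hR, hRe⟩ := mem_Q0.1 hr
    obtain ⟨R', hR', hRe'⟩ := K_conj hk hR
    rw [mem_Q0']
    show c.1 * r.1 * (c.1)⁻¹ ∈ Qp
    have hq1 : (g q)⁻¹ ∈ Qp := Qp.inv_mem (mem_Qp.2 ⟨q, hq, rfl⟩)
    have e : c.1 * r.1 * (c.1)⁻¹ = (g q)⁻¹ * (g k * g R * (g k)⁻¹) * ((g q)⁻¹)⁻¹ := by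
      rw [he, hRe]
      group
    rw [e, hRe']
    exact Qp.mul_mem (Qp.mul_mem hq1 (mem_Qp.2 ⟨R', hR', rfl⟩)) (Qp.inv_mem hq1)
  iso := iso_K0
  core := by
    intro k hk hk1
    obtain ⟨P, hP, he⟩ := mem_K0.1 hk
    have hv := (good_K hP).1
    have h := allL_iff.mp K_core P hP
    simp only [Bool.or_eq_true] at h
    rcases h with h | h
    · exfalso
      apply hk1
      apply Subtype.ext
      rw [he]
      exact g_of_isId hv h
    · obtain ⟨p, hp, hpe⟩ := List.any_eq_true.1 h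
      simp only [Bool.and_eq_true, Bool.not_eq_eq_eq_not, Bool.not_true] at hpe
      obtain ⟨hm, hid⟩ := H_mem p hp
      have hv1 := (good_K hm).1
      have hv2 := (good_K (H_mem2 p hp)).1
      have hg1 := g_of_isId (valid_comp hv1 hv2) hid
      rw [g_comp hv1 hv2] at hg1
      have hinv : (g p.1)⁻¹ = g p.2 := inv_eq_of_mul_eq_one_right hg1
      have hvy : validPerm (comp P (comp (comp p.1 P) p.2)) = true :=
        valid_comp hv (valid_comp (valid_comp hv1 hv) hv2)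
      have hgy : g (comp P (comp (comp p.1 P) p.2)) = g P * (g p.1 * g P * (g p.1)⁻¹) := by
        rw [g_comp hv (valid_comp (valid_comp hv1 hv) hv2), g_comp (valid_comp hv1 hv) hv2, g_comp hv1 hv, hinv]
      refine ⟨⟨g p.1, (good_K hm).2⟩, mem_K0.2 ⟨p.1, hm, rfl⟩, ?_, ?_⟩
      · intro he1
        have e2 : g P * (g p.1 * g P * (g p.1)⁻¹) = 1 := by
          have := congrArg Subtype.val he1
          rw [← he]
          exact this
        rw [← hgy] at e2
        have := isId_of_g hvy e2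
        rw [hpe.1] at this
        exact absurd this (by simp)
      · apply Subtype.ext
        show (k.1 * (g p.1 * k.1 * (g p.1)⁻¹)) ^ 3 = 1
        rw [he, ← hgy, pow_succ, pow_two, mul_assoc, ← g_comp hvy hvy, ← g_comp hvy (valid_comp hvy hvy)]
        exact g_of_isId (valid_comp hvy (valid_comp hvy hvy)) hpe.2
  odd := odd_base

end Cfsg.Agent.Lib.M24Data.OctadInv
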