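import Cfsg.Agent.Lib.M24Data.Universe

/-!
# Orbits of stabilisers on the enumerated octads, sextets and trios

`runF` walks through a spanning forest for the action of some generators on indices, with the seen
indices as a bit set; `sigK` is an invariant of the stabiliser of a family of sets.  Together they
determine the orbits and their sizes.
-/

set_option autoImplicit false

namespace Cfsg.Agent.Lib.M24Data.Orbit

open Cfsg Cfsg.Agent.Lib.Golay.Core Cfsg.Agent.Lib.Golay.Perm Cfsg.Agent.Lib.Golay.Chain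
  Cfsg.Agent.Lib.Golay.M24 Cfsg.Agent.Lib.M24Data.OctadPairs Cfsg.Agent.Lib.M24Data.Tree
  Cfsg.Agent.Lib.M24Data.Universe
open scoped Pointwise

/-! ## Orbits -/

section Orb

variable {X Y : Type*} [MulAction (Equiv.Perm GolayPt) X] [MulAction (Equiv.Perm GolayPt) Y]

/-- The orbit of `y` under the stabiliser of `x` in the group of the code. -/
def Orb (x : X) (y : Y) : Set Y := {z | ∃ σ ∈ M24, σ • x = x ∧ σ • y = z}

theorem self_mem_Orb (x : X) (y : Y) : y ∈ Orb x y :=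
  ⟨1, M24.one_mem, one_smul _ _, one_smul _ _⟩

theorem Orb_trans {x : X} {y z w : Y} (h1 : z ∈ Orb x y) (h2 : w ∈ Orb x z) : w ∈ Orb x y := by
  obtain ⟨σ, hσ, h3, rfl⟩ := h1
  obtain ⟨τ, hτ, h4, rfl⟩ := h2
  exact ⟨τ * σ, M24.mul_mem hτ hσ, by rw [mul_smul, h3, h4], mul_smul _ _ _⟩

theorem Orb_smul (x : X) (y : Y) {ρ : Equiv.Perm GolayPt} (hρ : ρ ∈ M24) :
    Orb (ρ • x) (ρ • y) = (fun z => ρ • z) '' Orb x y := by
  ext z
  constructor
  · rintro ⟨σ, hσ, h1, rfl⟩
    refine ⟨ρ⁻¹ • σ • ρ • y, ⟨ρ⁻¹ * σ * ρ, M24.mul_mem (M24.mul_mem (M24.inv_mem hρ) hσ) hρ, ?_, ?_⟩,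
      smul_inv_smul _ _⟩
    · rw [mul_smul, mul_smul, h1, inv_smul_smul]
    · rw [mul_smul, mul_smul]
  · rintro ⟨w, ⟨σ, hσ, h1, rfl⟩, rfl⟩
    refine ⟨ρ * σ * ρ⁻¹, M24.mul_mem (M24.mul_mem hρ hσ) (M24.inv_mem hρ), ?_, ?_⟩
    · rw [mul_smul, mul_smul, inv_smul_smul, h1]
    · rw [mul_smul, mul_smul, inv_smul_smul]

theorem ncard_Orb_smul (x : X) (y : Y) {ρ : Equiv.Perm GolayPt} (hρ : ρ ∈ M24) :
    (Orb (ρ • x) (ρ • y)).ncard = (Orb x y).ncard := by
  rw [Orb_smul x y hρ, Set.ncard_image_of_injective _ (MulAction.injective ρ)]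

/-- The universe is the union of three orbits. -/
def Part3 (x : X) (F : Set Y) (a b c : ℕ) : Prop :=
  ∃ X₁ ∈ F, ∃ X₂ ∈ F, ∃ X₃ ∈ F, (Orb x X₁).ncard = a ∧ (Orb x X₂).ncard = b ∧ (Orb x X₃).ncard = c ∧
    F = Orb x X₁ ∪ Orb x X₂ ∪ Orb x X₃

/-- The universe is the union of four orbits. -/
def Part4 (x : X) (F : Set Y) (a b c d : ℕ) : Prop :=
  ∃ X₁ ∈ F, ∃ X₂ ∈ F, ∃ X₃ ∈ F, ∃ X₄ ∈ F, (Orb x X₁).ncard = a ∧ (Orb x X₂).ncard = b ∧
    (Orb x X₃).ncard = c ∧ (Orb x X₄).ncard = d ∧ F = Orb x X₁ ∪ Orb x X₂ ∪ Orb x X₃ ∪ Orb x X₄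

theorem eq_image_of_inv {F : Set Y} (hM : ∀ σ ∈ M24, ∀ y ∈ F, σ • y ∈ F) {ρ : Equiv.Perm GolayPt}
    (hρ : ρ ∈ M24) : F = (fun z => ρ • z) '' F := by
  ext z
  constructor
  · intro hz
    exact ⟨ρ⁻¹ • z, hM _ (M24.inv_mem hρ) _ hz, smul_inv_smul _ _⟩
  · rintro ⟨w, hw, rfl⟩
    exact hM _ hρ _ hw

theorem Part3.smul {x : X} {F : Set Y} {a b c : ℕ} (h : Part3 x F a b c)
    (hM : ∀ σ ∈ M24, ∀ y ∈ F, σ • y ∈ F) {ρ : Equiv.Perm GolayPt} (hρ : ρ ∈ M24) :
    Part3 (ρ • x) F a b c := by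
  obtain ⟨X₁, h1, X₂, h2, X₃, h3, e1, e2, e3, e⟩ := h
  refine ⟨ρ • X₁, hM _ hρ _ h1, ρ • X₂, hM _ hρ _ h2, ρ • X₃, hM _ hρ _ h3, ?_, ?_, ?_, ?_⟩
  · rw [ncard_Orb_smul _ _ hρ, e1]
  · rw [ncard_Orb_smul _ _ hρ, e2]
  · rw [ncard_Orb_smul _ _ hρ, e3]
  · rw [Orb_smul _ _ hρ, Orb_smul _ _ hρ, Orb_smul _ _ hρ, ← Set.image_union, ← Set.image_union, ← e]
    exact eq_image_of_inv hM hρ

theorem Part4.smul {x : X} {F : Set Y} {a b c d : ℕ} (h : Part4 x F a b c d)
    (hM : ∀ σ ∈ M24, ∀ y ∈ F, σ • y ∈ F) {ρ : Equiv.Perm GolayPt} (hρ : ρ ∈ M24) :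
    Part4 (ρ • x) F a b c d := by
  obtain ⟨X₁, h1, X₂, h2, X₃, h3, X₄, h4, e1, e2, e3, e4, e⟩ := h
  refine ⟨ρ • X₁, hM _ hρ _ h1, ρ • X₂, hM _ hρ _ h2, ρ • X₃, hM _ hρ _ h3, ρ • X₄, hM _ hρ _ h4,
    ?_, ?_, ?_, ?_, ?_⟩
  · rw [ncard_Orb_smul _ _ hρ, e1]
  · rw [ncard_Orb_smul _ _ hρ, e2]
  · rw [ncard_Orb_smul _ _ hρ, e3]
  · rw [ncard_Orb_smul _ _ hρ, e4]
  · rw [Orb_smul _ _ hρ, Orb_smul _ _ hρ, Orb_smul _ _ hρ, Orb_smul _ _ hρ, ← Set.image_union,
      ← Set.image_union, ← Set.image_union, ← e]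
    exact eq_image_of_inv hM hρ

end Orb

/-! ## The walk through a forest -/

/-- The indices of a seen set. -/
def seedOf (L : List ℕ) : ℕ :=
  List.rec 0 (fun r _ ih => Nat.lor ih (Nat.shiftLeft 1 r)) L

theorem testBit_step (s c i : ℕ) : (Nat.lor s (Nat.shiftLeft 1 c)).testBit i = true ↔
    s.testBit i = true ∨ i = c := by
  have h : Nat.lor s (Nat.shiftLeft 1 c) = s ||| (2 ^ c) := by
    show s ||| (1 <<< c) = _
    rw [Nat.one_shiftLeft]
  rw [h, Nat.testBit_or, Bool.or_eq_true, Nat.testBit_two_pow]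
  simp only [decide_eq_true_eq]
  constructor
  · rintro (h | h)
    · exact Or.inl h
    · exact Or.inr h.symm
  · rintro (h | h)
    · exact Or.inl h
    · exact Or.inr h.symm

theorem seed_spec {Pr : ℕ → Prop} {L : List ℕ} (h : ∀ r ∈ L, Pr r) (i : ℕ)
    (hi : (seedOf L).testBit i = true) : Pr i := by
  induction L with
  | nil =>
    have : seedOf [] = 0 := rfl
    rw [this] at hi
    simp at hi
  | cons r t ih =>
    have e : seedOf (r :: t) = Nat.lor (seedOf t) (Nat.shiftLeft 1 r) := rfl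
    rw [e, testBit_step] at hi
    rcases hi with hi | rfl
    · exact ih (fun r hr => h r (List.mem_cons_of_mem _ hr)) hi
    · exact h _ List.mem_cons_self

/-- The entries of a forest: `c + 2 ^ 12 * p + 2 ^ 24 * k`: the index `c` is the image under the
generator `k` of the index `p`. -/
def fC (e : ℕ) : ℕ := Nat.land e 4095
def fP (e : ℕ) : ℕ := Nat.land (Nat.shiftRight e 12) 4095
def fK (e : ℕ) : ℕ := Nat.shiftRight e 24

/-- The walk.  The entries with the larger positions come first. -/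
def runF (rel : ℕ → ℕ → ℕ → Bool) (A : ℕ) (fin : ℕ → Bool) (m : ℕ) : ℕ → Bool :=
  Nat.rec fin (fun j ih seen => force (nthW A 28 j) fun e =>
    cond (Nat.beq (bit seen (fP e)) 1 && rel (fK e) (fP e) (fC e))
      (force (Nat.lor seen (Nat.shiftLeft 1 (fC e))) ih) false) m

theorem runF_succ (rel : ℕ → ℕ → ℕ → Bool) (A : ℕ) (fin : ℕ → Bool) (j seen : ℕ) :
    runF rel A fin (j + 1) seen = force (nthW A 28 j) fun e =>
    cond (Nat.beq (bit seen (fP e)) 1 && rel (fK e) (fP e) (fC e))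
      (force (Nat.lor seen (Nat.shiftLeft 1 (fC e))) (runF rel A fin j)) false := rfl

theorem runF_sound {rel : ℕ → ℕ → ℕ → Bool} {A : ℕ} {fin : ℕ → Bool} {Pr : ℕ → Prop} {Q : Prop}
    (hrel : ∀ k p c, rel k p c = true → Pr p → Pr c)
    (hfin : ∀ s, fin s = true → (∀ i, s.testBit i = true → Pr i) → Q) (m : ℕ) :
    ∀ seen, (∀ i, seen.testBit i = true → Pr i) → runF rel A fin m seen = true → Q := by
  induction m with
  | zero =>
    intro seen hseen hrun
    exact hfin seen hrun hseen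
  | succ j ih =>
    intro seen hseen hrun
    rw [runF_succ, force_eq] at hrun
    cases hb : (Nat.beq (bit seen (fP (nthW A 28 j))) 1 &&
        rel (fK (nthW A 28 j)) (fP (nthW A 28 j)) (fC (nthW A 28 j))) with
    | false =>
      rw [hb] at hrun
      exact absurd hrun (by simp)
    | true =>
      rw [hb, cond_true, force_eq] at hrun
      simp only [Bool.and_eq_true] at hb
      have h1 := hseen _ (bit_eq_one_iff.mp (Nat.eq_of_beq_eq_true hb.1))
      have h2 := hrel _ _ _ hb.2 h1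
      refine ih _ ?_ hrun
      intro i hi
      rcases (testBit_step _ _ _).mp hi with hi | rfl
      · exact hseen i hi
      · exact h2

/-- The test that all indices below `n` are seen. -/
def allSeen (n s : ℕ) : Bool := allUpTo (fun i => Nat.beq (bit s i) 1) n

/-- Soundness of the walk. -/
theorem forest_sound {rel : ℕ → ℕ → ℕ → Bool} {A m n : ℕ} {Pr : ℕ → Prop} {roots : List ℕ}
    (hrel : ∀ k p c, rel k p c = true → Pr p → Pr c) (hroots : ∀ r ∈ roots, Pr r)
    (hrun : runF rel A (allSeen n) m (seedOf roots) = true) : ∀ i < n, Pr i := by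
  refine runF_sound (Q := ∀ i < n, Pr i) hrel ?_ m _ (seed_spec hroots) hrun
  intro s hs h i hi
  exact h i (bit_eq_one_iff.mp (Nat.eq_of_beq_eq_true (allUpTo_iff.mp hs i hi)))

/-! ## Generators -/

/-- The `k`-th generator, with a default. -/
def genAt (d : ℕ) : List ℕ → ℕ → ℕ
  | [], _ => d
  | a :: _, 0 => a
  | _ :: l, k + 1 => genAt d l k

theorem genAt_mem (d : ℕ) (l : List ℕ) (k : ℕ) : genAt d l k ∈ d :: l := by
  induction l generalizing k with
  | nil => exact List.mem_cons_self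
  | cons a t ih =>
    cases k with
    | zero => exact List.mem_cons_of_mem _ List.mem_cons_self
    | succ k =>
      rcases List.mem_cons.mp (ih k) with h | h
      · rw [show genAt d (a :: t) (k + 1) = genAt d t k from rfl, h]
        exact List.mem_cons_self
      · rw [show genAt d (a :: t) (k + 1) = genAt d t k from rfl]
        exact List.mem_cons_of_mem _ (List.mem_cons_of_mem _ h)

/-- The relation of the forest, guarded. -/
def relG (relX : ℕ → ℕ → ℕ → Bool) (d : ℕ) (l : List ℕ) (n k p c : ℕ) : Bool :=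
  Nat.blt p n && Nat.blt c n && relX (genAt d l k) p c

theorem blt_iff {a b : ℕ} : Nat.blt a b = true ↔ a < b := by
  constructor
  · exact Nat.le_of_ble_eq_true
  · exact Nat.ble_eq_true_of_le

/-! ## The invariant -/

/-- The signature of two families. -/
def sig (f : ℕ → ℕ) (X Y : Finset (Finset GolayPt)) : ℕ := ∑ A ∈ X, ∑ B ∈ Y, f (A ∩ B).card

theorem sum_smul_family {σ : Equiv.Perm GolayPt} (X : Finset (Finset GolayPt)) (φ : Finset GolayPt → ℕ) :
    ∑ A ∈ σ • X, φ A = ∑ A ∈ X, φ (σ • A) := by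
  rw [Finset.smul_finset_def]
  rw [Finset.sum_image]
  intro a _ b _ h
  exact MulAction.injective σ h

theorem sig_smul (f : ℕ → ℕ) (σ : Equiv.Perm GolayPt) (X Y : Finset (Finset GolayPt)) :
    sig f (σ • X) (σ • Y) = sig f X Y := by
  unfold sig
  rw [sum_smul_family]
  apply Finset.sum_congr rfl
  intro A _
  rw [sum_smul_family]
  apply Finset.sum_congr rfl
  intro B _
  rw [← Finset.smul_finset_inter, Finset.card_smul_finset]

theorem sig_smul_right (f : ℕ → ℕ) {σ : Equiv.Perm GolayPt} {X : Finset (Finset GolayPt)} (h : σ • X = X)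
    (Y : Finset (Finset GolayPt)) : sig f X (σ • Y) = sig f X Y := by
  conv_lhs => rw [← h]
  exact sig_smul f σ X Y

/-- A weight separating the numbers of terms of each size. -/
def fSep (k : ℕ) : ℕ := Nat.shiftLeft 1 (Nat.mul 6 k)

/-- A sum over a list. -/
def sumL (φ : ℕ → ℕ) (L : List ℕ) : ℕ := List.rec 0 (fun a _ ih => Nat.add (φ a) ih) L

/-- The signature of two lists of masks. -/
def sigK (f : ℕ → ℕ) (XL YL : List ℕ) : ℕ :=
  sumL (fun a => sumL (fun b => f (pop (Nat.land a b))) YL) XL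

theorem sum_famOf (φ : Finset GolayPt → ℕ) {L : List ℕ} (h : (L.map Cfsg.Agent.Lib.Golay.Core.setOf).Nodup) :
    ∑ A ∈ famOf L, φ A = sumL (fun a => φ (Cfsg.Agent.Lib.Golay.Core.setOf a)) L := by
  induction L with
  | nil => simp [famOf, sumL]
  | cons a t ih =>
    have e : famOf (a :: t) = insert (Cfsg.Agent.Lib.Golay.Core.setOf a) (famOf t) := by
      simp [famOf]
    rw [e]
    obtain ⟨h1, h2⟩ := List.nodup_cons.mp h
    rw [Finset.sum_insert (by simpa [famOf] using h1), ih h2]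
    rfl

theorem sig_famOf (f : ℕ → ℕ) {XL YL : List ℕ} (hX : (XL.map Cfsg.Agent.Lib.Golay.Core.setOf).Nodup)
    (hY : (YL.map Cfsg.Agent.Lib.Golay.Core.setOf).Nodup) :
    sig f (famOf XL) (famOf YL) = sigK f XL YL := by
  unfold sig sigK
  rw [sum_famOf _ hX]
  congr 1
  funext a
  rw [sum_famOf _ hY]
  congr 1
  funext b
  congr 1
  rw [← card_setOf]
  exact (congrArg Finset.card (setOf_inter a b)).symm

theorem nodup_of_card {L : List (Finset GolayPt)} (h : L.toFinset.card = L.length) : L.Nodup := by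
  rw [List.card_toFinset] at h
  have := (List.dedup_sublist L).eq_of_length h
  exact List.dedup_eq_self.mp this

theorem sexL_nodup {i : ℕ} (hi : i < 1771) : ((sexL i).map Cfsg.Agent.Lib.Golay.Core.setOf).Nodup := by
  apply nodup_of_card
  have h := (decS_mem hi).1
  rw [List.length_map]
  exact h

theorem triL_nodup {i : ℕ} (hi : i < 3795) : ((triL i).map Cfsg.Agent.Lib.Golay.Core.setOf).Nodup := by
  apply nodup_of_card
  have h := (decT_mem hi).1
  rw [List.length_map]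
  exact h

theorem octL_nodup (a : ℕ) : ([a].map Cfsg.Agent.Lib.Golay.Core.setOf).Nodup := by simp

/-! ## Universes -/

/-- What is needed of an enumerated universe. -/
structure Univ {Y : Type*} [MulAction (Equiv.Perm GolayPt) Y] (F : Set Y) (dec : ℕ → Y) (n : ℕ)
    (relX : ℕ → ℕ → ℕ → Bool) (YL : ℕ → List ℕ) : Prop where
  hF : F = dec '' {i | i < n}
  hinj : Set.InjOn dec {i | i < n}
  hM : ∀ σ ∈ M24, ∀ y ∈ F, σ • y ∈ F
  hrel : ∀ P p c, Good P → p < n → c < n → (relX P p c = true ↔ g P • dec p = dec c)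
  hnd : ∀ i < n, ((YL i).map Cfsg.Agent.Lib.Golay.Core.setOf).Nodup
  hsm : ∀ (σ : Equiv.Perm GolayPt) (i j : ℕ), i < n → j < n → σ • dec i = dec j → σ • famOf (YL i) = famOf (YL j)

theorem famOf_single (a : ℕ) : famOf [a] = {Cfsg.Agent.Lib.Golay.Core.setOf a} := by
  simp [famOf]

theorem univO : Univ octads decO 759 relO (fun i => [octAt i]) where
  hF := octads_eq
  hinj := decO_injOn
  hM := fun _ hσ _ hy => smul_mem_octads hσ hy
  hrel := fun _ _ _ hP _ _ => relO_iff hP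
  hnd := fun i _ => octL_nodup _
  hsm := by
    intro σ i j _ _ h
    rw [famOf_single, famOf_single, Finset.smul_finset_singleton]
    exact congrArg _ h

theorem univS : Univ sextets decS 1771 relS sexL where
  hF := sextets_eq
  hinj := decS_injOn
  hM := fun _ hσ _ hy => smul_mem_sextets hσ hy
  hrel := fun _ _ _ hP hp hc => relS_iff hP hp hc
  hnd := fun _ hi => sexL_nodup hi
  hsm := fun _ _ _ _ _ h => h

theorem univT : Univ trios decT 3795 relT triL where
  hF := trios_eq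
  hinj := decT_injOn
  hM := fun _ hσ _ hy => smul_mem_trios hσ hy
  hrel := fun _ _ _ hP hp hc => relT_iff hP hp hc
  hnd := fun _ hi => triL_nodup hi
  hsm := fun _ _ _ _ _ h => h

/-! ## The main theorem -/

/-- Inequality of invariants. -/
def neInv (inv : ℕ → ℕ) (a b : ℕ) : Bool := !(Nat.beq (inv a) (inv b))

section Main

variable {X Y : Type*} [MulAction (Equiv.Perm GolayPt) X] [MulAction (Equiv.Perm GolayPt) Y]
  {F : Set Y} {dec : ℕ → Y} {n : ℕ} {relX : ℕ → ℕ → ℕ → Bool} {YL : ℕ → List ℕ}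

/-- All consequences of a run. -/
structure Result (x : X) (F : Set Y) (dec : ℕ → Y) (n : ℕ) (inv : ℕ → ℕ) (roots : List ℕ) : Prop where
  mem_root : ∀ i < n, ∃ r ∈ roots, dec i ∈ Orb x (dec r)
  inv_eq : ∀ σ ∈ M24, σ • x = x → ∀ i < n, ∀ j < n, σ • dec i = dec j → inv i = inv j
  iff_inv : ∀ r ∈ roots, ∀ i < n, dec i ∈ Orb x (dec r) ↔ inv i = inv r
  orb_eq : ∀ r ∈ roots, Orb x (dec r) = dec '' {i | i < n ∧ inv i = inv r}
  card_eq : ∀ r ∈ roots, (Orb x (dec r)).ncard = countUpTo (fun i => Nat.beq (inv i) (inv r)) n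
  root_mem : ∀ r ∈ roots, dec r ∈ F
  cover : ∀ z ∈ F, ∃ r ∈ roots, z ∈ Orb x (dec r)
  sub : ∀ r ∈ roots, Orb x (dec r) ⊆ F

theorem result_of_inv (U : Univ F dec n relX YL) (x : X) (inv : ℕ → ℕ)
    (hinv : ∀ σ ∈ M24, σ • x = x → ∀ i < n, ∀ j < n, σ • dec i = dec j → inv i = inv j)
    (d : ℕ) (l : List ℕ) (hgens : ∀ P ∈ d :: l, Good P ∧ g P • x = x) (A m : ℕ) (roots : List ℕ)
    (hroots : ∀ r ∈ roots, r < n) (hdist : pairB (neInv inv) roots = true)
    (hrun : runF (relG relX d l n) A (allSeen n) m (seedOf roots) = true) :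
    Result x F dec n inv roots := by
  have hF1 : ∀ i < n, dec i ∈ F := fun i hi => by
    rw [U.hF]
    exact ⟨i, hi, rfl⟩
  have hforest : ∀ i < n, ∃ r ∈ roots, dec i ∈ Orb x (dec r) := by
    refine forest_sound (rel := relG relX d l n) (A := A) (m := m)
      (Pr := fun i => ∃ r ∈ roots, dec i ∈ Orb x (dec r)) ?_ ?_ hrun
    · intro k p c h hp
      simp only [relG, Bool.and_eq_true] at h
      obtain ⟨⟨h1, h2⟩, h3⟩ := h
      have hG := hgens _ (genAt_mem d l k)
      have h4 := (U.hrel _ p c hG.1 (blt_iff.mp h1) (blt_iff.mp h2)).mp h3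
      obtain ⟨r, hr, h5⟩ := hp
      exact ⟨r, hr, Orb_trans h5 ⟨_, hG.1.2, hG.2, h4⟩⟩
    · intro r hr
      exact ⟨r, hr, self_mem_Orb _ _⟩
  have hfwd : ∀ r < n, ∀ i < n, dec i ∈ Orb x (dec r) → inv i = inv r := by
    rintro r hr i hi ⟨σ, hσ, h1, h2⟩
    exact (hinv σ hσ h1 r hr i hi h2).symm
  have hpw : ∀ r ∈ roots, ∀ r' ∈ roots, inv r' = inv r → r' = r := by
    intro r hr r' hr' he
    by_contra hne
    have hsym : ∀ a b, neInv inv a b = neInv inv b a := by
      intro a b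
      simp only [neInv]
      cases h1 : Nat.beq (inv a) (inv b) <;> cases h2 : Nat.beq (inv b) (inv a) <;> try rfl
      · have := Nat.eq_of_beq_eq_true h2
        rw [this, Nat.beq_refl] at h1
        exact absurd h1 (by simp)
      · have := Nat.eq_of_beq_eq_true h1
        rw [this, Nat.beq_refl] at h2
        exact absurd h2 (by simp)
    have := pw_forall hsym (pairB_spec hdist) hr' hr hne
    simp only [neInv, he, Nat.beq_refl] at this
    exact absurd this (by simp)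
  have hiff : ∀ r ∈ roots, ∀ i < n, dec i ∈ Orb x (dec r) ↔ inv i = inv r := by
    intro r hr i hi
    refine ⟨hfwd r (hroots r hr) i hi, fun h => ?_⟩
    obtain ⟨r', hr', h2⟩ := hforest i hi
    have h3 := hfwd r' (hroots r' hr') i hi h2
    rw [← hpw r hr r' hr' (by rw [← h3, h])]
    exact h2
  have hsub : ∀ r ∈ roots, Orb x (dec r) ⊆ F := by
    rintro r hr _ ⟨σ, hσ, -, rfl⟩
    exact U.hM σ hσ _ (hF1 r (hroots r hr))
  have horb : ∀ r ∈ roots, Orb x (dec r) = dec '' {i | i < n ∧ inv i = inv r} := by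
    intro r hr
    ext z
    constructor
    · intro hz
      have hz' := hsub r hr hz
      rw [U.hF] at hz'
      obtain ⟨i, hi, rfl⟩ := hz'
      exact ⟨i, ⟨hi, (hiff r hr i hi).mp hz⟩, rfl⟩
    · rintro ⟨i, ⟨hi, hi2⟩, rfl⟩
      exact (hiff r hr i hi).mpr hi2
  refine ⟨hforest, hinv, hiff, horb, ?_, fun r hr => hF1 r (hroots r hr), ?_, hsub⟩
  · intro r hr
    rw [horb r hr]
    have h : {i | i < n ∧ inv i = inv r} =
        (↑((Finset.range n).filter fun i => (fun i => Nat.beq (inv i) (inv r)) i = true) : Set ℕ) := by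
      ext i
      simp only [Set.mem_ofPred_eq, Finset.coe_filter, Finset.mem_range]
      constructor
      · rintro ⟨h1, h2⟩
        refine ⟨h1, ?_⟩
        rw [h2]
        exact Nat.beq_refl _
      · rintro ⟨h1, h2⟩
        exact ⟨h1, Nat.eq_of_beq_eq_true h2⟩
    rw [h, Set.InjOn.ncard_image, Set.ncard_coe_finset, countUpTo_eq]
    intro a ha b hb hab
    simp only [Finset.coe_filter, Finset.mem_range, Set.mem_ofPred_eq] at ha hb
    exact U.hinj ha.1 hb.1 hab
  · intro z hz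
    rw [U.hF] at hz
    obtain ⟨i, hi, rfl⟩ := hz
    exact hforest i hi

/-- The invariant of a family. -/
theorem inv_sig (U : Univ F dec n relX YL) (x : X) (f : ℕ → ℕ) (XL : List ℕ)
    (hX : (XL.map Cfsg.Agent.Lib.Golay.Core.setOf).Nodup)
    (hfix : ∀ σ : Equiv.Perm GolayPt, σ • x = x → σ • famOf XL = famOf XL) :
    ∀ σ ∈ M24, σ • x = x → ∀ i < n, ∀ j < n, σ • dec i = dec j →
      sigK f XL (YL i) = sigK f XL (YL j) := by
  intro σ _ h1 i hi j hj h2
  rw [← sig_famOf f hX (U.hnd i hi), ← sig_famOf f hX (U.hnd j hj), ← U.hsm σ i j hi hj h2,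
    sig_smul_right f (hfix σ h1)]

/-- The run, with the invariant of a family. -/
theorem result_of_run (U : Univ F dec n relX YL) (x : X) (f : ℕ → ℕ) (XL : List ℕ)
    (hX : (XL.map Cfsg.Agent.Lib.Golay.Core.setOf).Nodup)
    (hfix : ∀ σ : Equiv.Perm GolayPt, σ • x = x → σ • famOf XL = famOf XL)
    (d : ℕ) (l : List ℕ) (hgens : ∀ P ∈ d :: l, Good P ∧ g P • x = x) (A m : ℕ) (roots : List ℕ)
    (hroots : ∀ r ∈ roots, r < n) (hdist : pairB (neInv fun i => sigK f XL (YL i)) roots = true)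
    (hrun : runF (relG relX d l n) A (allSeen n) m (seedOf roots) = true) :
    Result x F dec n (fun i => sigK f XL (YL i)) roots :=
  result_of_inv U x _ (inv_sig U x f XL hX hfix) d l hgens A m roots hroots hdist hrun

/-- Three orbits. -/
theorem part3_of_result {x : X} {inv : ℕ → ℕ} {r1 r2 r3 a b c : ℕ}
    (R : Result x F dec n inv [r1, r2, r3])
    (h1 : countUpTo (fun i => Nat.beq (inv i) (inv r1)) n = a)
    (h2 : countUpTo (fun i => Nat.beq (inv i) (inv r2)) n = b)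
    (h3 : countUpTo (fun i => Nat.beq (inv i) (inv r3)) n = c) : Part3 x F a b c := by
  refine ⟨dec r1, R.root_mem _ (by simp), dec r2, R.root_mem _ (by simp), dec r3, R.root_mem _ (by simp),
    by rw [R.card_eq _ (by simp), h1], by rw [R.card_eq _ (by simp), h2], by rw [R.card_eq _ (by simp), h3], ?_⟩
  apply Set.Subset.antisymm
  · intro z hz
    obtain ⟨r, hr, h⟩ := R.cover z hz
    simp only [List.mem_cons, List.not_mem_nil, or_false] at hr
    simp only [Set.mem_union]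
    rcases hr with rfl | rfl | rfl
    · exact Or.inl (Or.inl h)
    · exact Or.inl (Or.inr h)
    · exact Or.inr h
  · rintro z ((h | h) | h)
    · exact R.sub r1 (by simp) h
    · exact R.sub r2 (by simp) h
    · exact R.sub r3 (by simp) h

/-- Four orbits. -/
theorem part4_of_result {x : X} {inv : ℕ → ℕ} {r1 r2 r3 r4 a b c d : ℕ}
    (R : Result x F dec n inv [r1, r2, r3, r4])
    (h1 : countUpTo (fun i => Nat.beq (inv i) (inv r1)) n = a)
    (h2 : countUpTo (fun i => Nat.beq (inv i) (inv r2)) n = b)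
    (h3 : countUpTo (fun i => Nat.beq (inv i) (inv r3)) n = c)
    (h4 : countUpTo (fun i => Nat.beq (inv i) (inv r4)) n = d) : Part4 x F a b c d := by
  refine ⟨dec r1, R.root_mem _ (by simp), dec r2, R.root_mem _ (by simp), dec r3, R.root_mem _ (by simp),
    dec r4, R.root_mem _ (by simp),
    by rw [R.card_eq _ (by simp), h1], by rw [R.card_eq _ (by simp), h2], by rw [R.card_eq _ (by simp), h3],
    by rw [R.card_eq _ (by simp), h4], ?_⟩
  apply Set.Subset.antisymm
  · intro z hz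
    obtain ⟨r, hr, h⟩ := R.cover z hz
    simp only [List.mem_cons, List.not_mem_nil, or_false] at hr
    simp only [Set.mem_union]
    rcases hr with rfl | rfl | rfl | rfl
    · exact Or.inl (Or.inl (Or.inl h))
    · exact Or.inl (Or.inl (Or.inr h))
    · exact Or.inl (Or.inr h)
    · exact Or.inr h
  · rintro z (((h | h) | h) | h)
    · exact R.sub r1 (by simp) h
    · exact R.sub r2 (by simp) h
    · exact R.sub r3 (by simp) h
    · exact R.sub r4 (by simp) h

end Main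

/-! ## The statements' orbits -/

section Concrete

theorem orbit_octad_trio (o : Finset GolayPt) (y : Finset (Finset GolayPt)) :
    MulAction.orbit ↥(MulAction.stabilizer M24 o) y = Orb o y := by
  ext z
  constructor
  · rintro ⟨⟨⟨σ, hσ⟩, hs⟩, rfl⟩
    exact ⟨σ, hσ, hs, rfl⟩
  · rintro ⟨σ, hσ, hs, rfl⟩
    exact ⟨⟨⟨σ, hσ⟩, hs⟩, rfl⟩

theorem orbit_fam_oct (o : Finset (Finset GolayPt)) (y : Finset GolayPt) :
    MulAction.orbit ↥(MulAction.stabilizer M24 o) y = Orb o y := by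
  ext z
  constructor
  · rintro ⟨⟨⟨σ, hσ⟩, hs⟩, rfl⟩
    exact ⟨σ, hσ, hs, rfl⟩
  · rintro ⟨σ, hσ, hs, rfl⟩
    exact ⟨⟨⟨σ, hσ⟩, hs⟩, rfl⟩

theorem orbit_fam_fam (o : Finset (Finset GolayPt)) (y : Finset (Finset GolayPt)) :
    MulAction.orbit ↥(MulAction.stabilizer M24 o) y = Orb o y := by
  ext z
  constructor
  · rintro ⟨⟨⟨σ, hσ⟩, hs⟩, rfl⟩
    exact ⟨σ, hσ, hs, rfl⟩
  · rintro ⟨σ, hσ, hs, rfl⟩
    exact ⟨⟨⟨σ, hσ⟩, hs⟩, rfl⟩

end Concrete

end Cfsg.Agent.Lib.M24Data.Orbit
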