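import Cfsg.Agent.Lib.M24Data.Orbit
import Cfsg.Agent.Lib.M24Orb.SextetOrbits
import Cfsg.Agent.Lib.M24Orb.TrioOrbits

/-!
# The group of the code is transitive on the enumerated sextets and trios
-/

set_option autoImplicit false

namespace Cfsg.Agent.Lib.M24Data.Transit

open Cfsg Cfsg.Agent.Lib.M24Data.Universe
open scoped Pointwise

theorem exists_smul_decS {S : Finset (Finset GolayPt)} (hS : S ∈ sextets) {i : ℕ} (hi : i < 1771) :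
    ∃ ρ ∈ M24, ρ • decS i = S := by
  obtain ⟨a, ha⟩ := Cfsg.Agent.Lib.M24Orb.SextetOrbits.mem_sextets_iff.mp hS
  obtain ⟨b, hb⟩ := Cfsg.Agent.Lib.M24Orb.SextetOrbits.mem_sextets_iff.mp (decS_mem hi)
  refine ⟨a.1 * b.1⁻¹, M24.mul_mem a.2 (M24.inv_mem b.2), ?_⟩
  have ha' : a.1 • Cfsg.Agent.Lib.M24Orb.SextetOrbits.S0 = S := ha
  have hb' : b.1 • Cfsg.Agent.Lib.M24Orb.SextetOrbits.S0 = decS i := hb
  rw [← hb', mul_smul, inv_smul_smul, ha']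

theorem exists_smul_decT {T : Finset (Finset GolayPt)} (hT : T ∈ trios) {i : ℕ} (hi : i < 3795) :
    ∃ ρ ∈ M24, ρ • decT i = T := by
  obtain ⟨a, ha⟩ := Cfsg.Agent.Lib.M24Orb.TrioOrbits.mem_trios_iff.mp hT
  obtain ⟨b, hb⟩ := Cfsg.Agent.Lib.M24Orb.TrioOrbits.mem_trios_iff.mp (decT_mem hi)
  refine ⟨a.1 * b.1⁻¹, M24.mul_mem a.2 (M24.inv_mem b.2), ?_⟩
  have ha' : a.1 • Cfsg.Agent.Lib.M24Orb.TrioOrbits.T0 = T := ha
  have hb' : b.1 • Cfsg.Agent.Lib.M24Orb.TrioOrbits.T0 = decT i := hb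
  rw [← hb', mul_smul, inv_smul_smul, ha']

end Cfsg.Agent.Lib.M24Data.Transit
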